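/-
The even half of the Golay cocode in coordinates: maps preserving the duads come from `M24`.
-/
import Mathlib
import Cfsg.Agent.H49.FiA
import Cfsg.Agent.H49.U43Chi
import Cfsg.Agent.H42.M24

set_option autoImplicit false
set_option maxRecDepth 200000
set_option synthInstance.maxSize 4000

namespace Cfsg.Agent.H49

open Cfsg Equiv Cfsg.Agent.H42 U43
open scoped Pointwise

/-- the coordinates of a point -/
noncomputable def cd (p : GolayPt) : ℕ := fld 11 n_cd (idx p)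

theorem cd_lt (p : GolayPt) : cd p < 2048 := fld_lt 11 _ _

theorem cd2_lt (p q : GolayPt) : cd p ^^^ cd q < 2048 :=
  Nat.xor_lt_two_pow (n := 11) (cd_lt p) (cd_lt q)

theorem cd_inj {p q : GolayPt} (h : cd p = cd q) : p = q := by
  revert p q; decide +kernel

theorem cd_ne {p q : GolayPt} (h : p ≠ q) : cd p ^^^ cd q ≠ 0 :=
  fun e => h (cd_inj (Nat.eq_of_xor_eq_zero e))

theorem chi_cd {p q : GolayPt} : chiT (cd p ^^^ cd q) = false := by
  revert p q; decide +kernel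

theorem exists_cd {c : ℕ} (hc : c < 2048) (h0 : c ≠ 0) (h : chiT c = false) :
    ∃ p q, p ≠ q ∧ c = cd p ^^^ cd q := by
  have : allB (fun c => Bool.or (Bool.or (Nat.beq c 0) (chiT c)) (force (fld 10 n_pa c) fun k =>
      Bool.and (Bool.and (Nat.ble (Nat.mod k 32) 23) (Nat.ble (Nat.div k 32) 23))
        (Nat.beq c (Nat.xor (fld 11 n_cd (Nat.mod k 32)) (fld 11 n_cd (Nat.div k 32)))))) 2048 = true := by
    decide +kernel
  have := of_allB this hc
  simp only [force_eq, h, Bool.or_eq_true, Bool.and_eq_true, beq_iff, ble_iff, h0] at this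
  obtain ⟨⟨h1, h2⟩, e⟩ := this.resolve_left (by simp)
  refine ⟨pt (Nat.mod (fld 10 n_pa c) 32), pt (Nat.div (fld 10 n_pa c) 32), fun e' => h0 ?_, by
    rw [cd, cd, idx_pt (Nat.lt_succ_of_le h1), idx_pt (Nat.lt_succ_of_le h2)]; exact e⟩
  rw [e, pt_inj (Nat.lt_succ_of_le h1) (Nat.lt_succ_of_le h2) e']
  exact Nat.xor_self _

theorem cd_pair {p q r s : GolayPt} (h : p ≠ q) (e : cd p ^^^ cd q = cd r ^^^ cd s) :
    (r = p ∧ s = q) ∨ (r = q ∧ s = p) := by
  have k : ∀ p q : GolayPt, p ≠ q → fld 10 n_pa (cd p ^^^ cd q) = idx p + 32 * idx q ∨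
      fld 10 n_pa (cd p ^^^ cd q) = idx q + 32 * idx p := by decide +kernel
  have h' : r ≠ s := fun e' => cd_ne h (by rw [e, e', Nat.xor_self])
  have h1 := k p q h
  have h2 := k r s h'
  have := idx_lt p; have := idx_lt q; have := idx_lt r; have := idx_lt s
  rw [e] at h1
  simp only [← idx_injective.eq_iff]
  omega

theorem chi_cd4 {p q r s : GolayPt} (h1 : p ≠ q) (h2 : r ≠ s) (h3 : p ≠ r) (h4 : p ≠ s)
    (h5 : q ≠ r) (h6 : q ≠ s) : chiT (cd p ^^^ cd q ^^^ (cd r ^^^ cd s)) = true := by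
  have k : allB (fun p => allB (fun q => force (Nat.xor (fld 11 n_cd p) (fld 11 n_cd q)) fun x =>
      allB (fun r => Bool.or (Bool.or (Nat.beq p r) (Nat.beq q r))
        (force (Nat.xor x (fld 11 n_cd r)) fun y => allB (fun s =>
          Bool.or (Bool.or (Nat.beq p s) (Nat.beq q s))
            (force (Nat.xor y (fld 11 n_cd s)) chiT)) r)) 24) p) 24 = true := by decide +kernel
  wlog a : idx q < idx p generalizing p q
  · rw [Nat.xor_comm (cd p)]
    exact this h1.symm h5 h6 h3 h4 (lt_of_le_of_ne (not_lt.1 a) (idx_injective.ne h1))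
  wlog b : idx s < idx r generalizing r s
  · rw [Nat.xor_comm (cd r)]
    exact this h2.symm h4 h3 h6 h5 (lt_of_le_of_ne (not_lt.1 b) (idx_injective.ne h2))
  have := of_allB (of_allB k (idx_lt p)) a
  rw [force_eq] at this
  have := of_allB this (idx_lt r)
  simp only [Bool.or_eq_true, beq_iff, idx_injective.eq_iff, h3, h5, false_or, force_eq] at this
  have := of_allB this b
  simp only [Bool.or_eq_true, beq_iff, idx_injective.eq_iff, h4, h6, false_or] at this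
  rw [← Nat.xor_assoc]
  exact this

theorem cd_meet {x y : ℕ} (hx : x < 2048) (hy : y < 2048) (x0 : x ≠ 0) (y0 : y ≠ 0)
    (h1 : chiT x = false) (h2 : chiT y = false) (h3 : chiT (x ^^^ y) = false) :
    ∃ p q r, x = cd p ^^^ cd q ∧ y = cd p ^^^ cd r := by
  obtain ⟨p, q, a, rfl⟩ := exists_cd hx x0 h1
  obtain ⟨r, s, b, rfl⟩ := exists_cd hy y0 h2
  by_cases e1 : p = r
  · exact ⟨p, q, s, rfl, e1 ▸ rfl⟩
  by_cases e2 : p = s
  · exact ⟨p, q, r, rfl, e2 ▸ Nat.xor_comm _ _⟩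
  by_cases e3 : q = r
  · exact ⟨q, p, s, Nat.xor_comm _ _, e3 ▸ rfl⟩
  by_cases e4 : q = s
  · exact ⟨q, p, r, Nat.xor_comm _ _, e4 ▸ Nat.xor_comm _ _⟩
  rw [chi_cd4 a b e1 e2 e3 e4] at h3
  exact absurd h3 (by decide)

theorem xor_xor_xor (a b c : ℕ) : a ^^^ b ^^^ (a ^^^ c) = b ^^^ c := by
  rw [Nat.xor_comm a b, Nat.xor_assoc, Nat.xor_xor_cancel_left]

theorem xorC_z (f : ℕ → ℕ) (k : ℕ) : xorC f 0 k = 0 := by
  have := xorC_xor f 0 0 k
  rwa [Nat.xor_self, Nat.xor_self] at this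

theorem xorC_tp (f : ℕ → ℕ) {j k : ℕ} (h : j < k) : xorC f (2 ^ j) k = f j := by
  have key : ∀ k, xorC f (2 ^ j) k = if j < k then f j else 0 := fun k => by
    induction k with
    | zero => rfl
    | succ k ih =>
      rw [xorC_succ, ih, Nat.testBit_two_pow]
      rcases lt_trichotomy j k with e | rfl | e
      · simp [e, e.ne, e.le, Nat.lt_succ_iff]
      · simp
      · simp [e.ne', e.not_gt, Nat.lt_succ_iff, e.not_ge]
  rw [key, if_pos h]

/-- the coordinates in the full cocode -/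
noncomputable def LL (m : ℕ) : ℕ := xorC (fun i => Nat.xor (fld 11 n_cd i) 2048) m 24

theorem LL_xor (a b : ℕ) : LL (a ^^^ b) = LL a ^^^ LL b := xorC_xor _ _ _ _

theorem LL_bas : ∀ i < 12, LL (bas i) = 0 := by decide +kernel

theorem isCode_of_LL {m : ℕ} (hm : m < 2 ^ 24) (h : LL m = 0) : isCode m = true := by
  have k : allB (fun t => Bool.or (Nat.beq t 0) (force (Nat.mul 4096 t) fun m =>
      Bool.not (Nat.beq (LL m) 0))) 4096 = true := by decide +kernel
  have h1 : m % 4096 < 4096 := Nat.mod_lt _ (by norm_num)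
  have h2 : LL (enc (m % 4096)) = 0 := by
    rw [enc_eq_xorC h1]
    exact xorC_induction (LL · = 0) (xorC_z _ _)
      (fun a b e1 e2 => by rw [LL_xor, e1, e2]; rfl) _ _ _ LL_bas
  have h3 : (enc (m % 4096) ^^^ m) % 4096 = 0 := by
    refine (Nat.xor_mod_two_pow (n := 12)).trans ?_
    rw [show _ % 2 ^ 12 = _ from enc_mod h1]
    exact Nat.xor_self _
  have h4 := xor_lt (enc_lt (m % 4096)) hm
  have h5 := LL_xor (enc (m % 4096)) m
  rw [h, h2] at h5
  refine beq_iff.2 (Nat.eq_of_xor_eq_zero ?_)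
  change (enc (m % 4096) ^^^ m) < _ at h4
  change (enc (m % 4096) ^^^ m) = _
  generalize enc (m % 4096) ^^^ m = n at *
  obtain ⟨t, rfl⟩ := Nat.dvd_of_mod_eq_zero h3
  have := of_allB k (show t < 4096 by omega)
  rw [force_eq, show LL (Nat.mul 4096 t) = 0 from h5] at this
  rw [beq_iff.1 ((Bool.or_eq_true_iff.1 this).resolve_right (by decide))]

theorem todd {μ : ℕ → ℕ} (hx : ∀ a < 2048, ∀ b < 2048, μ (a ^^^ b) = μ a ^^^ μ b)
    (hl : ∀ a < 2048, μ a < 2048) (h0 : ∀ a < 2048, μ a = 0 → a = 0)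
    (hD : ∀ a < 2048, chiT (μ a) = chiT a) :
    ∃ π ∈ M24, ∀ p q, μ (cd p ^^^ cd q) = cd (π p) ^^^ cd (π q) := by
  have z0 : μ 0 = 0 := by simpa using hx 0 (by norm_num) 0 (by norm_num)
  have tri : ∀ p q r, μ (cd p ^^^ cd q) ^^^ μ (cd p ^^^ cd r) = μ (cd q ^^^ cd r) := fun p q r => by
    rw [← hx _ (cd2_lt _ _) _ (cd2_lt _ _), xor_xor_xor]
  have ne : ∀ {p q}, p ≠ q → μ (cd p ^^^ cd q) ≠ 0 := fun h e => cd_ne h (h0 _ (cd2_lt _ _) e)
  have mt : ∀ {p q r}, p ≠ q → p ≠ r → ∃ a b c, μ (cd p ^^^ cd q) = cd a ^^^ cd b ∧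
      μ (cd p ^^^ cd r) = cd a ^^^ cd c := fun h1 h2 =>
    cd_meet (hl _ (cd2_lt _ _)) (hl _ (cd2_lt _ _)) (ne h1) (ne h2)
      ((hD _ (cd2_lt _ _)).trans chi_cd) ((hD _ (cd2_lt _ _)).trans chi_cd)
      (by rw [tri, hD _ (cd2_lt _ _), chi_cd])
  obtain ⟨p0, p1, p2, e1, e2⟩ := mt (p := none) (q := some 0) (r := some 1) (by simp) (by simp)
  have ne' : ∀ {p q a b}, p ≠ q → μ (cd p ^^^ cd q) = cd a ^^^ cd b → a ≠ b := fun h e e' =>
    ne h (by rw [e, e', Nat.xor_self])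
  have : ∀ b, ∃ q, μ (cd none ^^^ cd b) = cd p0 ^^^ cd q := fun b => by
    by_cases hb : none = b
    · exact ⟨p0, by rw [← hb, Nat.xor_self, Nat.xor_self, z0]⟩
    obtain ⟨a, a', r, f1, f2⟩ := mt (q := some 0) (by simp) hb
    rcases cd_pair (ne' (by simp) e1) (e1.symm.trans f1) with ⟨rfl, -⟩ | ⟨rfl, -⟩
    · exact ⟨r, f2⟩
    obtain ⟨c, c', r', f3, f4⟩ := mt (q := some 1) (by simp) hb
    rcases cd_pair (ne' (by simp) e2) (e2.symm.trans f3) with ⟨rfl, -⟩ | ⟨rfl, -⟩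
    · exact ⟨r', f4⟩
    have f5 := tri none (some 0) (some 1)
    rw [e1, e2, xor_xor_xor] at f5
    rcases cd_pair (ne' hb f2) (f2.symm.trans f4) with ⟨rfl, -⟩ | ⟨rfl, -⟩
    · exact absurd rfl (ne' (by decide) f5.symm)
    have := h0 _ (Nat.xor_lt_two_pow (n := 11) (cd2_lt none b) (cd2_lt (some 0) (some 1))) (by
      rw [hx _ (cd2_lt _ _) _ (cd2_lt _ _), f2, f5, Nat.xor_self])
    rcases cd_pair hb (Nat.eq_of_xor_eq_zero this) with ⟨h, -⟩ | ⟨-, h⟩ <;> simp at h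
  choose π hπ using this
  have hp : ∀ p q, μ (cd p ^^^ cd q) = cd (π p) ^^^ cd (π q) := fun p q => by
    rw [← tri none, hπ, hπ, xor_xor_xor]
  have inj : Function.Injective π := fun p q e => by
    by_contra h
    exact ne' h (hp p q) e
  let π' := Equiv.ofBijective π (Finite.injective_iff_bijective.1 inj)
  refine ⟨π', mem_M24_of_basis _ fun i hi => ?_, hp⟩
  have A := rel_xorC (R := fun a b => LL (mask (π' • toSet a)) = b) (k := 24)
    (f := fun i => 2 ^ i) (g := fun i => cd (π (pt i)) ^^^ 2048) (by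
      rw [toSet_zero, Finset.smul_finset_empty, ← toSet_zero, mask_toSet (by norm_num)]
      exact xorC_z _ _)
    (fun a b a' b' e1 e2 => by
      rw [← e1, ← e2, ← LL_xor]
      congr 1
      refine toSet_inj (mask_lt _) (xor_lt (mask_lt _) (mask_lt _)) ?_
      rw [toSet_mask, show a ^^^ a' = Nat.xor a a' from rfl, toSet_xor, Finset.smul_finset_symmDiff]
      exact ((toSet_xor _ _).trans (by rw [toSet_mask, toSet_mask])).symm) (bas i)
    (fun j hj => by
      rw [show 2 ^ j = Nat.pow 2 j from rfl, toSet_pow hj, Finset.smul_finset_singleton,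
        ← pt_idx (π' • pt j), ← toSet_pow (idx_lt _),
        mask_toSet (n := Nat.pow 2 _) (Nat.pow_lt_pow_right (by norm_num) (idx_lt _))]
      exact xorC_tp _ (idx_lt _))
  rw [xorC_id (c := bas i) (fld_lt 24 _ _)] at A
  have B := rel_xorC (R := fun a b => a < 4096 ∧ b = μ (a % 2048) ^^^
      if a.testBit 11 then μ (cd none) ^^^ (cd (π none) ^^^ 2048) else 0) (k := 24)
    (f := fun i => Nat.xor (fld 11 n_cd i) 2048) (g := fun i => cd (π (pt i)) ^^^ 2048)
    ⟨by norm_num, by simp [z0]⟩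
    (fun a b a' b' e1 e2 => ⟨Nat.xor_lt_two_pow (n := 12) e1.1 e2.1, by
      rw [e1.2, e2.2, show 2048 = 2 ^ 11 from rfl, Nat.xor_mod_two_pow,
        hx _ (Nat.mod_lt _ (by norm_num)) _ (Nat.mod_lt _ (by norm_num)), Nat.testBit_xor]
      cases a.testBit 11 <;> cases a'.testBit 11 <;>
        simp [Nat.xor_comm, Nat.xor_left_comm] <;> rw [Nat.xor_assoc]⟩) (bas i)
    (fun j hj => by
      obtain ⟨t1, t2, t3⟩ := (by decide +kernel : ∀ j < 24, Nat.xor (fld 11 n_cd j) 2048 < 4096 ∧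
        Nat.xor (fld 11 n_cd j) 2048 % 2048 = cd (pt j) ∧
        (Nat.xor (fld 11 n_cd j) 2048).testBit 11 = true) j hj
      refine ⟨t1, ?_⟩
      rw [t2, t3, if_pos rfl, ← Nat.xor_assoc, ← hx _ (cd_lt _) _ (cd_lt _), hp, Nat.xor_assoc,
        Nat.xor_xor_cancel_left])
  have C : xorC (fun i => Nat.xor (fld 11 n_cd i) 2048) (bas i) 24 = 0 := LL_bas i hi
  rw [C] at B
  rw [mem_codeSets_iff_isCode]
  exact isCode_of_LL (mask_lt _) (A.trans (B.2.trans (by simp [z0])))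

theorem perm_eq_of_cd {π π' : Perm GolayPt}
    (h : ∀ p q, cd (π p) ^^^ cd (π q) = cd (π' p) ^^^ cd (π' q)) : π = π' := by
  ext1 p
  obtain ⟨q, r, h1, h2, h3⟩ := (by decide +kernel : ∀ p : GolayPt, ∃ q r : GolayPt,
    p ≠ q ∧ p ≠ r ∧ q ≠ r) p
  rcases cd_pair (π.injective.ne h1) (h p q) with ⟨e, -⟩ | ⟨e, -⟩
  · exact e.symm
  rcases cd_pair (π.injective.ne h2) (h p r) with ⟨e', -⟩ | ⟨e', -⟩
  · exact e'.symm
  exact absurd (π.injective (e.symm.trans e')) h3

theorem exists_dd : ∀ i < 11, ∃ c < 2048, chiT c = false ∧ chiT (c ^^^ 2 ^ i) = false := by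
  decide +kernel

theorem cnt_chiT : cnt chiT 2048 = 1771 := by decide +kernel

end Cfsg.Agent.H49
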