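/-
Groups of large Fischer type: the Thompson subgroup of a Sylow 2-subgroup and its normaliser.
-/
import Mathlib
import Cfsg.Agent.H49.FiA2
import Cfsg.Agent.H49.Todd
import Cfsg.Agent.H49.Syl

set_option autoImplicit false
set_option maxRecDepth 200000

namespace Cfsg.Agent.H49

open Cfsg Subgroup Equiv Cfsg.Agent.H28 Cfsg.Agent.H42 U43

variable {G : Type*} [Group G]

theorem max_elem {P : Type*} [Group P] [Finite G] (f : P →* G) (hf : Function.Injective f)
    {A : Subgroup G} (hA : A ≤ f.range) (h2 : ∀ a ∈ A, a * a = 1)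
    (hu : ∀ B ≤ f.range, (∀ b ∈ B, b * b = 1) → Nat.card A ≤ Nat.card B → B = A) :
    maxElementaryAbelianSubgroups 2 P = {A.comap f} := by
  have e : (A.comap f).map f = A := map_comap_eq_self hA
  have s2 : ∀ a ∈ A.comap f, a * a = 1 := fun a ha => hf (by rw [map_mul, h2 _ ha, map_one])
  have el : IsElementaryAbelian 2 (A.comap f) :=
    ⟨⟨⟨fun a b => Subtype.ext (comm_of_sq s2 a.2 b.2)⟩⟩, fun a ha => (pow_two a).trans (s2 a ha)⟩
  have k : ∀ B : Subgroup P, IsElementaryAbelian 2 B → Nat.card (A.comap f) ≤ Nat.card B →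
      B = A.comap f := fun B hB hc => by
    rw [← hu (B.map f) (map_le_range _ _) (by
      rintro _ ⟨b, hb, rfl⟩; rw [← map_mul, ← pow_two, hB.2 b hb, map_one])
      (by rwa [← e, card_map_of_injective hf, card_map_of_injective hf]),
      comap_map_eq_self_of_injective hf]
  ext B
  refine ⟨fun hB => k B hB.1 (hB.2 _ el), ?_⟩
  rintro rfl
  exact ⟨el, fun B hB => (le_total _ _).elim id fun hc => (k B hB hc) ▸ le_rfl⟩

theorem card_eq_conj_mul [Finite G] (N : Subgroup G) (z : G) :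
    {a | ∃ m ∈ N, m * z * m⁻¹ = a}.ncard * Nat.card ↥(N ⊓ centralizer {z}) = Nat.card N := by
  letI := MulAction.compHom G ((MulAut.conj : G →* MulAut G).comp N.subtype)
  have e1 : MulAction.orbit N z = {a | ∃ m ∈ N, m * z * m⁻¹ = a} := by
    ext a
    exact ⟨fun ⟨m, e⟩ => ⟨m.1, m.2, e⟩, fun ⟨m, hm, e⟩ => ⟨⟨m, hm⟩, e⟩⟩
  have e2 : MulAction.stabilizer N z = (N ⊓ centralizer {z}).subgroupOf N := by
    ext m
    rw [MulAction.mem_stabilizer_iff, mem_subgroupOf, mem_inf, and_iff_right m.2,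
      mem_centralizer_singleton_iff, ← mul_inv_eq_iff_eq_mul]
    rfl
  rw [← e1, ← MulAction.index_stabilizer, ← index_mul_card (MulAction.stabilizer N z), e2,
    Nat.card_congr (subgroupOfEquivOfLe inf_le_left).toEquiv]

/-- an elementary abelian group of order `2^11` with coordinates -/
structure TA (z : G) (A : Subgroup G) (α : ℕ → G) : Prop where
  xor : ∀ a b, α (a ^^^ b) = α a * α b
  amem : ∀ c, α c ∈ A
  inj : ∀ {a b}, a < 2048 → b < 2048 → α a = α b → a = b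
  asurj : ∀ {a}, a ∈ A → ∃ c < 2048, α c = a
  chi : ∀ {c}, c < 2048 → (IsConj z (α c) ↔ chiT c = true)
  cent : ∀ {c}, (∀ a ∈ A, c * a = a * c) → c ∈ A
  card : Nat.card A = 2048
  big : 2048 * 244823040 ≤ Nat.card (normalizer (A : Set G))

variable {Q : Subgroup G} {z : G} {ρ : centralizer ({z} : Set G) →* Perm V0} {κ : G → V0}
  {x : G} {σ : V0 → G} {α : ℕ → G} {A : Subgroup G}

theorem FD.im_norm [Finite G] (h : FD Q z ρ κ) : im ρ (normalizer (AA Q ρ κ : Set G)) = NW := by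
  ext g
  rw [mem_im']
  exact ⟨fun ⟨c, hc, r⟩ => (h.norm_AA r).1 hc, fun hg => (h.rh_ex hg.1).imp fun c r =>
    ⟨(h.norm_AA r).2 hg, r⟩⟩

theorem FD.le_norm [Finite G] (h : FD Q z ρ κ) : Q ≤ normalizer (AA Q ρ κ : Set G) := fun _ hc =>
  (h.norm_AA (h.rh_one.2 hc)).2 (one_mem _)

theorem FA.toTA [Finite G] (h : FA Q z ρ κ x σ α) : TA z (AA Q ρ κ) α := by
  refine ⟨h.xor, h.amem, h.inj, h.asurj, h.chi, h.cent_AA, h.card_AA, ?_⟩
  rw [← card_eq_conj_mul _ z, ← h.card_im, h.im_norm, card_NW, inf_eq_left.2 h.le_norm, h.card,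
    ncard_eq_cnt _ α chiT 2048 (fun i hi j hj _ _ => h.inj hi hj) fun a => ⟨?_, ?_⟩, cnt_chiT]
  · norm_num
  · rintro ⟨m, hm, rfl⟩
    obtain ⟨c, hc, e⟩ := h.asurj (conj_mem_of_mem_normalizer hm h.z_mem_AA)
    exact ⟨c, hc, (h.chi hc).1 (isConj_iff.2 ⟨m, e.symm⟩), e⟩
  · rintro ⟨c, hc, e, rfl⟩
    obtain ⟨g, hg⟩ := isConj_iff.1 ((h.chi hc).2 e)
    exact hg ▸ h.fusion h.toFX.AA_sq h.card_AA.ge h.z_mem_AA (hg ▸ h.amem c)

namespace TA

theorem conj (h : TA z A α) (g : G) : TA z (cj A g) fun c => g * α c * g⁻¹ where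
  xor a b := by rw [h.xor, conj_mul]
  amem c := ⟨_, h.amem c, rfl⟩
  inj ha hb e := h.inj ha hb (by simpa using e)
  asurj := by
    rintro _ ⟨a, ha, rfl⟩
    exact (h.asurj ha).imp fun c hc => ⟨hc.1, by rw [hc.2]; rfl⟩
  chi hc := Iff.trans ⟨fun i => i.trans (isConj_iff.2 ⟨g, rfl⟩).symm,
    fun i => i.trans (isConj_iff.2 ⟨g, rfl⟩)⟩ (h.chi hc)
  cent {c} hc := mem_cj.2 (h.cent fun a ha => by
    have : c * (g * a * g⁻¹) = g * a * g⁻¹ * c := hc _ ⟨a, ha, rfl⟩
    calc g⁻¹ * c * g * a = g⁻¹ * (c * (g * a * g⁻¹)) * g := by group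
      _ = _ := by rw [this]; group)
  card := (card_cj A g).trans h.card
  big := by
    rw [cj, ← H98.map_conj_normalizer, H98.card_map_conj]; exact h.big

theorem a_zero (h : TA z A α) : α 0 = 1 := by
  have := h.xor 0 0
  rwa [Nat.xor_self, left_eq_mul] at this

theorem sq (h : TA z A α) : ∀ a ∈ A, a * a = 1 := fun a ha => by
  obtain ⟨c, -, rfl⟩ := h.asurj ha
  rw [← h.xor, Nat.xor_self, h.a_zero]

theorem elem (h : TA z A α) : IsElementaryAbelian 2 A :=
  ⟨⟨⟨fun a b => Subtype.ext (comm_of_sq h.sq a.2 b.2)⟩⟩, fun a ha => (pow_two a).trans (h.sq a ha)⟩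

theorem pair (h : TA z A α) {p q r s : GolayPt} (hp : p ≠ q)
    (e : α (cd p ^^^ cd q) = α (cd r ^^^ cd s)) : (r = p ∧ s = q) ∨ (r = q ∧ s = p) :=
  cd_pair hp (h.inj (cd2_lt _ _) (cd2_lt _ _) e)

theorem exists_pair (h : TA z A α) {a : G} (ha : a ∈ A) (h1 : a ≠ 1) (h2 : ¬ IsConj z a) :
    ∃ p q, p ≠ q ∧ a = α (cd p ^^^ cd q) := by
  obtain ⟨c, hc, rfl⟩ := h.asurj ha
  obtain ⟨p, q, e, rfl⟩ := exists_cd hc (fun e => h1 (e ▸ h.a_zero))
    (Bool.eq_false_iff.2 fun e => h2 ((h.chi hc).2 e))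
  exact ⟨p, q, e, rfl⟩

theorem exists_hom [Finite G] (h : TA z A α) : ∃ φ : normalizer (A : Set G) →* Perm GolayPt,
    φ.range = M24 ∧ φ.ker = A.subgroupOf _ ∧
      ∀ m p q, m.1 * α (cd p ^^^ cd q) * m.1⁻¹ = α (cd (φ m p) ^^^ cd (φ m q)) := by
  have : ∀ m : normalizer (A : Set G), ∃ π ∈ M24,
      ∀ p q, m.1 * α (cd p ^^^ cd q) * m.1⁻¹ = α (cd (π p) ^^^ cd (π q)) := fun m => by
    choose μ h1 h2 using fun c => h.asurj (conj_mem_of_mem_normalizer m.2 (h.amem c))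
    obtain ⟨π, hπ, e⟩ := todd (μ := μ) (fun a _ b _ => h.inj (h1 _)
        (Nat.xor_lt_two_pow (n := 11) (h1 _) (h1 _)) (by rw [h.xor, h2, h2, h2, h.xor, conj_mul]))
      (fun a _ => h1 a) (fun a ha e => h.inj ha (by norm_num) (by
        have := h2 a
        rw [e, h.a_zero, eq_comm, conj_eq_one_iff] at this
        rw [this, h.a_zero]))
      (fun a ha => Bool.eq_iff_iff.2 (by
        rw [← h.chi ha, ← h.chi (h1 a), h2]
        exact ⟨fun i => i.trans (isConj_iff.2 ⟨_, rfl⟩).symm, fun i => i.trans (isConj_iff.2 ⟨_, rfl⟩)⟩))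
    exact ⟨π, hπ, fun p q => by rw [← e, h2]⟩
  choose φ h1 h2 using this
  have u : ∀ {π π' : Perm GolayPt}, (∀ p q, α (cd (π p) ^^^ cd (π q)) =
      α (cd (π' p) ^^^ cd (π' q))) → π = π' := fun e =>
    perm_eq_of_cd fun p q => h.inj (cd2_lt _ _) (cd2_lt _ _) (e p q)
  let ψ := MonoidHom.mk' φ fun a b => u fun p q => by
    rw [← h2, Perm.mul_apply, Perm.mul_apply, ← h2, ← h2, coe_mul]; group
  have hk : ψ.ker = A.subgroupOf _ := by
    ext m
    rw [MonoidHom.mem_ker, mem_subgroupOf]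
    refine ⟨fun e => h.cent fun a ha => ?_, fun hm => u fun p q => ?_⟩
    · have e : φ m = 1 := e
      have k : ∀ c < 2048, chiT c = false → Commute m.1 (α c) := fun c hc h0 => by
        by_cases h1 : c = 0
        · rw [h1, h.a_zero]; exact Commute.one_right _
        obtain ⟨p, q, -, rfl⟩ := exists_cd hc h1 h0
        exact mul_inv_eq_iff_eq_mul.1 (by rw [h2, e]; rfl)
      obtain ⟨c, hc, rfl⟩ := h.asurj ha
      have := rel_xorC (R := fun a _ => Commute m.1 (α a)) (k := 11) (f := fun i => 2 ^ i)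
        (g := fun i => i) (k 0 (by norm_num) (by decide +kernel))
        (fun a _ b _ e1 e2 => h.xor a b ▸ e1.mul_right e2) c fun i hi => by
          obtain ⟨c, hc, e1, e2⟩ := exists_dd i hi
          have := (k c hc e1).mul_right (k _ (Nat.xor_lt_two_pow (n := 11) hc
            (Nat.pow_lt_pow_right (by norm_num) hi)) e2)
          rwa [← h.xor, Nat.xor_xor_cancel_left] at this
      rwa [xorC_id (k := 11) hc] at this
    · exact (h2 m p q).symm.trans (by
        rw [comm_of_sq h.sq hm (h.amem _), mul_inv_cancel_right]; rfl)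
  refine ⟨ψ, eq_of_le_of_card_ge (by rintro _ ⟨m, rfl⟩; exact h1 m) ?_, hk, h2⟩
  have := ψ.ker.index_mul_card
  rw [index_ker, hk, Nat.card_congr (subgroupOfEquivOfLe le_normalizer).toEquiv, h.card] at this
  have := h.big
  rw [card_M24]
  omega

end TA

namespace FD

variable [Finite G]

theorem AA_le_syl (h : FD Q z ρ κ) {T : Subgroup G} (hT : H98.SylIn 2 T (centralizer {z}))
    (hN : im ρ T ≤ NW) : AA Q ρ κ ≤ T :=
  le_sylIn_of_normal hT h.isPGroup_AA AA_le fun c hc => by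
    obtain ⟨g, r⟩ := exists_rh (ρ := ρ) (mem_centralizer_singleton_iff.1 (hT.le hc))
    exact (h.norm_AA r).2 (hN (r.mem_im hc))

theorem thompson (h : FD Q z ρ κ) (T : Sylow 2 G) :
    ∃ α, TA z (thompsonSubgroupOf 2 (T : Subgroup G)) α := by
  obtain ⟨g, hg⟩ := h.exists_cj_le T.isPGroup'
  have hT := ((H98.sylIn_top T).map_conj_of_mem (mem_top g)).mono hg le_top
  obtain ⟨ρ, κ, h, hN⟩ := h.exists_NW hT.isPGroup
  obtain ⟨x, σ, α, h'⟩ := h.exists_FA
  have hA := h'.toTA.conj g⁻¹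
  have le : cj (AA Q ρ κ) g⁻¹ ≤ T := (cj_mono (h.AA_le_syl hT hN) _).trans (cj_inv_cj _ _).le
  have e : (T : Subgroup G).subtype.range = T := range_subtype _
  rw [thompsonSubgroupOf, thompsonSubgroup, max_elem _ (subtype_injective _) (le.trans e.ge) hA.sq
    fun B hB h2 hc => h.uniq2 T.isPGroup' (hB.trans e.le) le h2 hA.sq (hA.card ▸ hc) hA.card.ge,
    sSup_singleton, map_comap_eq_self (le.trans e.ge)]
  exact ⟨_, hA⟩

end FD

end Cfsg.Agent.H49
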