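/-
Groups of large Fischer type: the normaliser of the 2-central subgroup of order eight.
-/
import Mathlib
import Cfsg.Agent.H49.V8
import Cfsg.Agent.H3.Frattini

set_option autoImplicit false
set_option maxRecDepth 200000
set_option synthInstance.maxSize 4000

namespace Cfsg.Agent.H49

open Cfsg Subgroup Equiv Cfsg.Agent.H28 Cfsg.Agent.H42 U43

variable {G : Type*} [Group G]

theorem special_of_three [Finite G] {Q S T V R : Subgroup G} {z s t : G} (hQ : XS Q z)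
    (hS : XS S s) (hT : XS T t) (hz : z ∈ V) (hs : s ∈ V) (ht : t ∈ V) (zs : z ≠ s)
    (hV : Q ⊓ S ⊓ T = V) (hR : R ≤ centralizer (V : Set G)) (h2 : IsPGroup 2 R)
    (r1 : Q ⊓ S ≤ R) (r2 : Q ⊓ T ≤ R) (r3 : S ⊓ T ≤ R)
    (hd : ∀ r ∈ R, ∃ c ∈ S ⊓ T, ∃ a ∈ Q ⊓ S, ∃ b ∈ Q ⊓ T, r = c * a * b)
    (c1 : Q ⊓ centralizer ((Q ⊓ S : Subgroup G) : Set G) ≤ S)
    (c2 : S ⊓ centralizer ((Q ⊓ S : Subgroup G) : Set G) ≤ Q)
    (c3 : Q ⊓ centralizer ((Q ⊓ T : Subgroup G) : Set G) ≤ T)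
    (ab : ∀ a ∈ Q ⊓ S, ∀ b ∈ Q ⊓ S, a * b = b * a)
    (hc : ∀ u ∈ V, u ≠ 1 → ∃ a ∈ R, ∃ b ∈ R, a * b * a⁻¹ * b⁻¹ = u) :
    IsSpecial 2 R ∧ (center R).map R.subtype = V := by
  have : Fact (Nat.Prime 2) := ⟨Nat.prime_two⟩
  have VR : V ≤ R := hV.ge.trans (inf_le_left.trans r1)
  have e : (center R).map R.subtype = V := by
    ext y
    rw [mem_center_map_iff]
    refine ⟨fun ⟨hy, h⟩ => ?_, fun hy => ⟨VR hy, fun r hr => hR hr y hy⟩⟩
    obtain ⟨c, hc, a, ha, b, hb, rfl⟩ := hd y hy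
    have k : ∀ f ∈ Q ⊓ S, f * c = c * f ∧ f * b = b * f := fun f hf => by
      have h0 := h f (r1 hf)
      have h1 : c * a * (b * f * b⁻¹) * c⁻¹ = f * c * a * c⁻¹ := by
        simp only [← mul_assoc] at h0 ⊢; rw [h0, mul_inv_cancel_right]
      have h2 : ∀ g ∈ Q ⊓ S, c * a * g * c⁻¹ = f * c * a * c⁻¹ → c * g * c⁻¹ = f := fun g hg e => by
        rw [mul_assoc c, ab a ha g hg, mul_left_inj, ← mul_assoc, mul_left_inj] at e
        rw [e, mul_inv_cancel_right]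
      have zc : c * z = z * c := (hR (r3 hc) z hz).symm
      rcases hQ.conj hb.1 hf.1 with e | e
      · exact ⟨(mul_inv_eq_iff_eq_mul.1 (h2 f hf (by rwa [e] at h1))).symm, (mul_inv_eq_iff_eq_mul.1 e).symm⟩
      · have := h2 _ (mul_mem hf (hV.ge hz).1) (by rwa [e] at h1)
        rw [← mul_assoc, mul_assoc _ z, ← (show Commute c z from zc).inv_left.eq, ← mul_assoc] at this
        rcases hS.conj hc.1 hf.2 with e | e <;> rw [e] at this
        · exact absurd this (hQ.mul_z_ne f)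
        · rw [mul_assoc, mul_eq_left, mul_eq_one_iff_inv_eq, hS.inv_z] at this
          exact absurd this.symm zs
    have m1 : c ∈ V := hV.le ⟨⟨c2 ⟨hc.1, fun f hf => (k f hf).1⟩, hc.1⟩, hc.2⟩
    have m2 : b ∈ V := hV.le ⟨⟨hb.1, c1 ⟨hb.1, fun f hf => (k f hf).2⟩⟩, hb.2⟩
    refine mul_mem (mul_mem m1 (hV.le ⟨ha, c3 ⟨ha.1, fun f hf => ?_⟩⟩)) m2
    have := h f (r2 hf)
    rw [mul_assoc _ b, hR (r2 hf) b m2, ← mul_assoc, ← mul_assoc, mul_left_inj, ← mul_assoc,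
      ← hR (r2 hf) c m1, mul_assoc, mul_assoc, mul_right_inj] at this
    exact this.symm
  have e' : center R = V.subgroupOf R := by
    rw [← e, subgroupOf, comap_map_eq_self_of_injective (subtype_injective _)]
  let π := QuotientGroup.mk' (center R)
  have k : ∀ {a : R}, a.1 ∈ V → π a = 1 := fun h => (QuotientGroup.eq_one_iff _).2 (e' ▸ h)
  have c : ∀ {P u}, XS P u → u ∈ V → ∀ {a b : R}, a.1 ∈ P → b.1 ∈ P → Commute (π a) (π b) :=
    fun h hu a b ha hb => by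
      have := k (a := a * b * a⁻¹ * b⁻¹) (zpowers_le.2 hu (h.commutator_mem ha hb))
      rwa [map_mul, map_mul, map_mul, map_inv, map_inv, mul_inv_eq_one, mul_inv_eq_iff_eq_mul] at this
  have q : ∀ {P u}, XS P u → u ∈ V → ∀ {a : R}, a.1 ∈ P → π a ^ 2 = 1 :=
    fun h hu a ha => by rw [pow_two, ← map_mul]; exact k (zpowers_le.2 hu (h.sq_mem ha))
  have d : ∀ r : R, ∃ c a b : R, c.1 ∈ S ⊓ T ∧ a.1 ∈ Q ⊓ S ∧ b.1 ∈ Q ⊓ T ∧ r = c * a * b := fun r => by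
    obtain ⟨c, hc, a, ha, b, hb, e⟩ := hd r r.2
    exact ⟨⟨c, r3 hc⟩, ⟨a, r1 ha⟩, ⟨b, r2 hb⟩, hc, ha, hb, Subtype.ext e⟩
  have l1 : commutator R ≤ center R := commutator_le.2 fun x _ y _ => by
    obtain ⟨c1, a1, b1, p1, p2, p3, rfl⟩ := d x
    obtain ⟨c2, a2, b2, q1, q2, q3, rfl⟩ := d y
    rw [← QuotientGroup.eq_one_iff]
    change π _ = 1
    rw [map_commutatorElement, commutatorElement_eq_one_iff_commute, map_mul, map_mul, map_mul, map_mul]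
    exact ((((c hS hs p1.1 q1.1).mul_right (c hS hs p1.1 q2.2)).mul_right (c hT ht p1.2 q3.2)).mul_left
      (((c hS hs p2.2 q1.1).mul_right (c hS hs p2.2 q2.2)).mul_right (c hQ hz p2.1 q3.1))).mul_left
      (((c hT ht p3.2 q1.2).mul_right (c hQ hz p3.1 q2.1)).mul_right (c hQ hz p3.1 q3.1))
  have l2 : center R ≤ commutator R := fun u hu => by
    by_cases u1 : u = 1
    · exact u1 ▸ one_mem _
    obtain ⟨a, ha, b, hb, e⟩ := hc u (show u ∈ V.subgroupOf R from e' ▸ hu) fun e => u1 (Subtype.ext e)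
    rw [show u = ⟨a, ha⟩ * ⟨b, hb⟩ * ⟨a, ha⟩⁻¹ * ⟨b, hb⟩⁻¹ from Subtype.ext e.symm]
    exact commutator_mem_commutator (mem_top _) (mem_top _)
  refine ⟨⟨h2, le_antisymm (H3.frattini_le_of_elementary_quotient Nat.prime_two l1 fun x => ?_)
    (l2.trans (H3.commutator_le_frattini h2)), l1.antisymm l2⟩, e⟩
  obtain ⟨c1, a1, b1, p1, p2, p3, rfl⟩ := d x
  rw [← QuotientGroup.eq_one_iff]
  change π _ = 1
  rw [map_pow, map_mul, map_mul, ((c hT ht p1.2 p3.2).mul_left (c hQ hz p2.1 p3.1)).mul_pow,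
    (c hS hs p1.1 p2.2).mul_pow, q hS hs p1.1, q hS hs p2.2, q hQ hz p3.1, one_mul, one_mul]

variable {Q S : Subgroup G} {z s y : G} {ρ : centralizer ({z} : Set G) →* Perm V0} {κ : G → V0}

theorem e0_mem : ∃ h : Pm (swap 0 1 * swap 2 3) ∈ X1, psi ⟨_, h⟩ = 1 := by
  refine ⟨⟨Pm_mem_K0 (by simp [Perm.mem_alternatingGroup]), mem_stb.2 (by decide +kernel)⟩,
    Subtype.ext (Equiv.ext fun i => ?_)⟩
  obtain ⟨a, ha, b, hb, h1, h2, h3⟩ := (by decide +kernel : ∀ i : Fin 6,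
    ∃ a ∈ [513, 769, 44, 35, 11, 257], ∃ b ∈ [516, 772, 131, 140, 14, 260], (M6 i).testBit a = true ∧
      Pm (swap 0 1 * swap 2 3) (dv a) = dv b ∧ ∀ j : Fin 6, (M6 j).testBit b = true → j = i) i
  have lt : ∀ a ∈ [513, 769, 44, 35, 11, 257, 516, 772, 131, 140, 14, 260], a < 4096 := by decide
  refine h3 _ ((dv_mem_eP (lt b (by simp at hb ⊢; omega))).1 ?_)
  exact (psi_acts _ i).le ⟨_, (dv_mem_eP (lt a (by simp at ha ⊢; omega))).2 h1, h2⟩

namespace FD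

variable [Finite G]

theorem card_E (h : FD Q z ρ κ) (p : Pair Q S z s) : Nat.card ↥(Q ⊓ S) = 2 ^ 7 := by
  obtain ⟨k, hk, e⟩ := exists_K0_of_mem (h.mem_St p) (MulAction.mem_orbit_self _)
  exact ((h.conj hk).im85 p e).2.1

theorem w_mem (h : FD Q z ρ κ) (p : Pair Q S z s) (hy : y ∈ Q) (e : κ y = w • κ s) : y ∈ S := by
  obtain ⟨k, hk, e1⟩ := exists_K0_of_mem (h.mem_St p) (MulAction.mem_orbit_self _)
  replace e := congrArg k e
  rw [linG_smul (K0_le_linG hk), e1] at e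
  replace h := h.conj hk
  obtain ⟨m, e0⟩ := e0_mem
  obtain ⟨b, hb, r⟩ := mem_im'.1 (mem_subgroupOf.1 ((h.im85 p e1).2.2.1.ge e0))
  obtain ⟨a, ha, e2⟩ := h.surj (dv 34)
  have c := h.swap ha p.xQ
  rw [e2, e1, show pol q0 (dv 34) (dv 85) = 0 by
    decide +kernel, zp_zero, mul_one] at c
  have m1 := mul_mem hb (p.hS.conj_mem c (inv_mem hb))
  have m2 := mul_mem (h.rh_conj r ha) (inv_mem ha)
  simp only [← mul_assoc] at m1
  rcases (h.eq_iff m2 hy).1 (by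
    rw [h.mul (h.rh_conj r ha) (inv_mem ha), h.rh_act r ha, h.kinv ha, e2]
    exact Eq.trans (show Pm (Equiv.swap 0 1 * Equiv.swap 2 3) (dv 34) + dv 34 = w • dv 85 by
      decide +kernel) e.symm) with e | e <;> rw [e]
  exacts [m1, mul_mem m1 p.zS]

theorem triple (h : FD Q z ρ κ) (p : Pair Q S z s) (e1 : κ s = dv 85) {y' : G} (hy : y ∈ Q ⊓ S)
    (hy' : y' ∈ Q ⊓ S) (e : κ y' = w • κ y) : ∃ c : K4, κ y = c • dv 85 := by
  obtain ⟨g, hg, hK⟩ := SetLike.not_le_iff_exists.1 (h.im85 p e1).2.2.2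
  obtain ⟨b, hb, r⟩ := mem_im'.1 hg
  have : ∀ y ∈ Q ⊓ S, ∃ a : K4, g (κ y) = κ y + a • dv 85 := fun y hy => by
    rw [← h.rh_act r hy.1]
    rcases p.hS.conj hb hy.2 with e | e <;> rw [e]
    exacts [⟨0, by simp⟩, ⟨1, by rw [h.mul hy.1 p.xQ, e1, one_smul]⟩]
  obtain ⟨a, h1⟩ := this y hy
  obtain ⟨a', h2⟩ := this y' hy'
  rw [e, semi (h.rh_mem r) hK, h1] at h2
  exact ⟨a' + w * w * a, funext fun i => (by decide +kernel : ∀ a a' x y : K4,
    w * (w * (x + a * y)) = w * x + a' * y → x = (a' + w * w * a) * y) _ _ _ _ (congrFun h2 i)⟩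

/-- the group of order eight -/
def VV (h : FD Q z ρ κ) (v : V0) : Subgroup G where
  carrier := {y | y ∈ Q ∧ ∃ c : K4, κ y = c • v}
  one_mem' := ⟨one_mem _, 0, by rw [(h.zero (one_mem _)).2 (Or.inl rfl), zero_smul]⟩
  mul_mem' := fun ⟨a, c, e⟩ ⟨b, d, f⟩ => ⟨mul_mem a b, c + d, by rw [h.mul a b, e, f, add_smul]⟩
  inv_mem' := fun ⟨a, c, e⟩ => ⟨inv_mem a, c, by rw [h.kinv a, e]⟩

theorem z_VV (h : FD Q z ρ κ) (v : V0) : z ∈ h.VV v :=
  ⟨h.hQ.mem, 0, by rw [(h.zero h.hQ.mem).2 (Or.inr rfl), zero_smul]⟩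

theorem VV_le (h : FD Q z ρ κ) {v : V0} {g : G} (hg : g * z * g⁻¹ ∈ h.VV v) : h.VV v ≤ cj Q g := by
  rintro y ⟨hy, d, e⟩
  by_cases hz : g * z * g⁻¹ = z
  · rwa [h.hQ.cj_eq_of_comm (mul_inv_eq_iff_eq_mul.1 hz)]
  obtain ⟨hg, c, e'⟩ := hg
  have p := h.pair hg hz
  have c0 : c ≠ 0 := fun e => h.ne_zero p (by rw [e', e, zero_smul])
  rw [← mul_inv_cancel_right₀ c0 d, mul_right_comm, mul_smul, ← e'] at e
  rcases K4_cases' (d * c⁻¹) with f | f | f | f <;> rw [f] at e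
  · rcases (h.zero hy).1 (e.trans (zero_smul _ _)) with e | e <;> rw [e]
    exacts [one_mem _, e ▸ p.zS]
  · rcases (h.eq_iff hg hy).1 (e.trans (one_smul _ _)).symm with e | e <;> rw [e]
    exacts [p.hS.mem, mul_mem p.hS.mem p.zS]
  · exact h.w_mem p hy e
  · refine (mul_mem_cancel_right p.hS.mem).1 (h.w_mem p (mul_mem hy hg) ?_)
    rw [h.mul hy hg, e, add_smul, one_smul, add_right_comm, V0_two, zero_add]

theorem VV_sq (h : FD Q z ρ κ) : ∀ a ∈ h.VV (dv 85), a * a = 1 := fun a ⟨ha, c, e⟩ =>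
  sqF_eq_zero.1 (by rw [← h.sq ha, e]; clear e; revert c; decide +kernel)

theorem card_VV (h : FD Q z ρ κ) : Nat.card (h.VV (dv 85)) = 8 := by
  obtain ⟨x, r, x3⟩ := h.exists_x
  obtain ⟨σ, h1⟩ := h.exists_FX r x3
  have := h1.card_inf (h.z_VV (dv 85))
  rwa [inf_eq_right.2 fun _ h => h.1, show κ '' (h.VV (dv 85)) = Set.range fun c : K4 => c • dv 85 from
    Set.ext fun v => ⟨fun ⟨y, ⟨_, c, e⟩, f⟩ => ⟨c, e.symm.trans f⟩, fun ⟨c, e⟩ =>
      (h.surj v).imp fun y hy => ⟨⟨hy.1, c, hy.2.trans e.symm⟩, hy.2⟩⟩,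
    Set.ncard_range_of_injective (by decide +kernel), Nat.card_eq_fintype_card (α := K4), card_K4] at this

theorem VV_conj (h : FD Q z ρ κ) {u : G} (hu : u ∈ h.VV (dv 85)) : u = 1 ∨ IsConj z u := by
  obtain ⟨hu, c, e⟩ := hu
  rcases K4_cases c with rfl | ⟨c, rfl⟩
  · exact ((h.zero hu).1 (e.trans (zero_smul _ _))).imp_right fun e : u = z => e ▸ IsConj.refl _
  · refine Or.inr ((h.mem_St_iff hu).1 ⟨⟨Dm fun _ => c, Dm_mem_K0 (by clear e; revert c; decide)⟩, ?_⟩).1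
    rw [e]; rfl

theorem exists_psiV (h : FD Q z ρ κ) : ∃ ψ : centralizer (h.VV (dv 85) : Set G) →* X1,
    Function.Surjective ψ ∧ ∀ c, Rh ρ c.1 (ψ c).1 := by
  have m : ∀ c : centralizer (h.VV (dv 85) : Set G), c.1 ∈ centralizer {z} := fun c =>
    mem_centralizer_singleton_iff.2 (c.2 z (h.z_VV _)).symm
  have r : ∀ c, Rh ρ c.1 (ρ ⟨_, m c⟩) := fun c => ⟨m c, rfl⟩
  have f : ∀ c (a : K4), ρ ⟨_, m c⟩ (a • dv 85) = a • dv 85 := fun c a => by
    obtain ⟨y, hy, e⟩ := h.surj (a • dv 85)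
    rw [← e, ← h.rh_act (r c) hy, ← c.2 y ⟨hy, a, e⟩, mul_inv_cancel_right]
  refine ⟨(ρ.comp ((Subgroup.subtype _).codRestrict _ m)).codRestrict _ fun c => ?_, fun g => ?_, r⟩
  · have e := f c 1
    rw [one_smul] at e
    refine ⟨by_contra fun hK => ?_, e⟩
    have := f c w
    rw [semi (h.rh_mem (r c)) hK, e] at this
    exact absurd this (by decide +kernel)
  · obtain ⟨c, s⟩ := h.rh_ex (K0_le_H0 g.2.1)
    obtain ⟨q, hq, e⟩ := h.hQ.exists_conj_eq_conj (U := h.VV (dv 85)) (fun _ h => h.1) (c := c)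
      fun u ⟨hu, a, e⟩ => (h.eq_iff hu (h.rh_conj s hu)).1 (by
        rw [h.rh_act s hu, e, linG_smul (K0_le_linG g.2.1), mem_stb.1 g.2.2])
    have m : q⁻¹ * c ∈ centralizer (h.VV (dv 85) : Set G) := fun u hu =>
      calc u * (q⁻¹ * c) = q⁻¹ * (q * u * q⁻¹) * c := by group
        _ = _ := by rw [e u hu]; group
    exact ⟨⟨_, m⟩, Subtype.ext ((r ⟨_, m⟩).uniq (by simpa using (h.rh_one.2 hq).inv.mul s))⟩

theorem two_cj (h : FD Q z ρ κ) {V : Subgroup G} (hV : ∀ {g}, g * z * g⁻¹ ∈ V → V ≤ cj Q g)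
    {a b : G} (ha : a * z * a⁻¹ ∈ V) (hb : b * z * b⁻¹ ∈ V) (ne : b * z * b⁻¹ ≠ a * z * a⁻¹) :
    Nat.card ↥(cj Q a ⊓ cj Q b) = 2 ^ 7 ∧
      (∀ x ∈ cj Q a ⊓ cj Q b, ∀ y ∈ cj Q a ⊓ cj Q b, x * y = y * x) ∧
      cj Q a ⊓ cj Q b ≤ cj Q a ⊓ centralizer (V : Set G) ∧
      cj Q a ⊓ centralizer ((cj Q a ⊓ cj Q b : Subgroup G) : Set G) ≤ cj Q b := by
  have p : Pair (cj Q a) (cj Q b) (a * z * a⁻¹) (b * z * b⁻¹) :=
    ⟨h.hQ.cj a, ⟨b * a⁻¹, by group, by rw [← cj_mul, inv_mul_cancel_right]⟩, hV ha hb, hV hb ha, ne⟩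
  have c : Nat.card ↥(cj Q a ⊓ cj Q b) = 2 ^ 7 := by
    have := h.card_E (h.pair (g := a⁻¹ * b) (by simpa [mul_assoc] using mem_cj.1 (hV ha hb))
      fun e => ne (by conv_rhs => rw [← e]
                      group))
    rwa [← card_cj _ a, cj_inf, ← cj_mul, mul_inv_cancel_left] at this
  refine ⟨c, fun x hx y hy => p.E_comm hx hy, le_inf inf_le_left fun x hx y hy =>
    p.E_comm ⟨hV ha hy, hV hb hy⟩ hx, fun x hx => ((eq_of_le_of_card_ge (H := cj Q a ⊓ cj Q b)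
      (le_inf inf_le_left fun x hx => mem_centralizer_iff.2 fun y hy => p.E_comm hy hx) ?_).ge hx).2⟩
  have := p.hQ.card_mul_card_centralizer_of_mem inf_le_left ⟨p.hQ.mem, p.zS⟩
  rw [c, card_cj, h.card] at this
  omega

theorem exists_V (h : FD Q z ρ κ) : ∃ V : Subgroup G, (∀ a ∈ V, a * a = 1) ∧ Nat.card V = 8 ∧
    z ∈ V ∧ ∃ θ : normalizer (V : Set G) →* Matrix.SpecialLinearGroup (Fin 3) (ZMod 2) ×
      alternatingGroup (Fin 6), Function.Surjective θ ∧ θ.ker = pCore 2 _ ∧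
      IsSpecial 2 (θ.ker.map (Subgroup.subtype _)) ∧
      Nat.card (θ.ker.map (Subgroup.subtype _)) = 2 ^ 15 ∧
      (center (θ.ker.map (Subgroup.subtype _))).map (Subgroup.subtype _) = V := by
  obtain ⟨g, h1, h2⟩ := h.wc
  have p := h.pair h1 h2
  obtain ⟨k, hk, e1⟩ := exists_K0_of_mem (h.mem_St p) (MulAction.mem_orbit_self _)
  replace h := h.conj hk
  generalize (MulAut.conj k).toMonoidHom.comp ρ = ρ at h
  change (fun x => k (κ x)) _ = _ at e1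
  generalize (fun x => k (κ x)) = κ at h e1
  obtain ⟨x, rx, -⟩ := h.exists_x
  obtain ⟨ψ, s0, r0⟩ := h.exists_psiV
  have hz := h.z_VV (dv 85)
  have c8 := h.card_VV
  have hV := fun {g} => h.VV_le (v := dv 85) (g := g)
  have sq := h.VV_sq
  have cjz := fun {u} => h.VV_conj (u := u)
  have e2 : κ (x * g * z * (x * g)⁻¹) = w • dv 85 := by
    rw [← Dm_one_apply, ← e1, ← h.rh_act rx h1]; congr 1; group
  have h3 : x * g * z * (x * g)⁻¹ ∈ Q := by simpa [mul_assoc] using h.rh_conj rx h1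
  have m0 : 1 * z * 1⁻¹ ∈ h.VV (dv 85) := by simpa using hz
  have m1 : g * z * g⁻¹ ∈ h.VV (dv 85) := ⟨h1, 1, by rw [e1, one_smul]⟩
  have m2 : x * g * z * (x * g)⁻¹ ∈ h.VV (dv 85) := ⟨h3, w, e2⟩
  have n1 : x * g * z * (x * g)⁻¹ ≠ z := fun e => absurd (e2.symm.trans
    ((h.zero h3).2 (Or.inr e))) (by decide +kernel)
  have n2 : x * g * z * (x * g)⁻¹ ≠ g * z * g⁻¹ := fun e => by
    rw [e, e1] at e2; exact absurd e2 (by decide +kernel)
  have tr : Q ⊓ cj Q g ⊓ cj Q (x * g) = h.VV (dv 85) := by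
    refine le_antisymm (fun y hy => ⟨hy.1.1, ?_⟩) (le_inf (le_inf (fun _ h => h.1) (hV m1)) (hV m2))
    have a := h.rh_conj rx.inv hy.1.1
    have b : κ y = w • κ (x⁻¹ * y * x⁻¹⁻¹) := by
      rw [← Dm_one_apply, ← h.rh_act rx a]; congr 1; group
    obtain ⟨c, e⟩ := h.triple p e1 ⟨a, by rw [inv_inv]; exact mem_cj.1 (cj_mul Q x g ▸ hy.2)⟩ hy.1 b
    exact ⟨w * c, by rw [b, e, mul_smul]⟩
  have VQ : h.VV (dv 85) ≤ Q := fun _ h => h.1
  generalize h.VV (dv 85) = V at *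
  have cA : ∀ {a}, a * z * a⁻¹ ∈ V → Nat.card ↥(cj Q a ⊓ centralizer (V : Set G)) = 2 ^ 11 :=
    fun {a} ha => by
    have := (h.hQ.cj a).card_mul_card_centralizer_of_mem (hV ha) ha
    rw [c8, card_cj, h.card] at this
    omega
  have nA : ∀ {a}, a * z * a⁻¹ ∈ V → centralizer (V : Set G) ≤ normalizer (cj Q a : Set G) :=
    fun {a} ha => (centralizer_le (Set.singleton_subset_iff.2 ha)).trans (h.hQ.cj a).nz
  have : IsSimpleGroup (alternatingGroup (Fin 6)) := alternatingGroup.isSimpleGroup (by simp)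
  have cR : Nat.card (psi.comp ψ).ker = 2 ^ 15 := by
    have c1 := ψ.ker.index_mul_card
    have c2 := (psi.comp ψ).ker.index_mul_card
    rw [index_ker, MonoidHom.range_eq_top.2 s0, card_top, card_X1, show ψ.ker =
      (Q ⊓ centralizer (V : Set G)).subgroupOf _ from Subgroup.ext fun c => by
        rw [mem_subgroupOf, mem_inf, and_iff_left c.2, ← h.rh_one]
        exact ⟨fun e => by have := r0 c; rwa [MonoidHom.mem_ker.1 e] at this,
          fun r => Subtype.ext ((r0 c).uniq r)⟩,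
      Nat.card_congr (subgroupOfEquivOfLe inf_le_right).toEquiv, ← cj_one Q, cA m0] at c1
    rw [index_ker, MonoidHom.range_eq_top.2 (psi_surj.comp s0 :), card_top, card_alt6] at c2
    omega
  have p2 : IsPGroup 2 (psi.comp ψ).ker := IsPGroup.of_card cR
  obtain ⟨θ, t1, t2, t3⟩ := V8_main sq c8 (fun u hu u1 => by
      obtain ⟨a, rfl⟩ := isConj_iff.1 ((cjz hu).resolve_left u1)
      exact ⟨_, (h.hQ.cj a).toXS, hV hu, nA hu⟩) (by rw [card_alt6]; norm_num)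
    (eq_bot_iff.2 fun c hc => Subtype.ext (cent_alt6 fun τ hτ =>
      congrArg Subtype.val (mem_center_iff.1 hc ⟨τ, hτ⟩).symm)) _ (psi_surj.comp s0) p2
  refine ⟨V, sq, c8, hz, θ, t1, t2, ?_⟩
  rw [t3]
  have AR : ∀ {a}, a * z * a⁻¹ ∈ V → cj Q a ⊓ centralizer (V : Set G) ≤
      (psi.comp ψ).ker.map (Subgroup.subtype _) := fun {a} ha y hy => by
    have := two_eq_bot (by rw [card_alt6]; norm_num) ((normal_subgroupOf_of_le_normalizer
      (nA ha)).map (psi.comp ψ) (psi_surj.comp s0)) ((h.hQ.cj a).isPGroup.comap_subtype.map _)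
    exact ⟨⟨y, hy.2⟩, mem_bot.1 (this ▸ mem_map_of_mem _ hy.1), rfl⟩
  replace cR := (card_map_of_injective (subtype_injective _)).trans cR
  replace p2 := p2.map (Subgroup.subtype _)
  have hR := map_subtype_le (psi.comp ψ).ker
  generalize (psi.comp ψ).ker.map (Subgroup.subtype _) = R at *
  have dA : ∀ {a b c}, a * z * a⁻¹ ∈ V → b * z * b⁻¹ ∈ V → c * z * c⁻¹ ∈ V →
      b * z * b⁻¹ ≠ a * z * a⁻¹ → c * z * c⁻¹ ≠ a * z * a⁻¹ →
      (cj Q a ⊓ cj Q b) ⊓ (cj Q a ⊓ cj Q c) = V → ∀ y ∈ cj Q a ⊓ centralizer (V : Set G),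
      ∃ u ∈ cj Q a ⊓ cj Q b, ∃ v ∈ cj Q a ⊓ cj Q c, u * v = y := by
    intro a b c ha hb hc n1 n2 e y hy
    obtain ⟨a1, -, a2, -⟩ := h.two_cj hV ha hb n1
    obtain ⟨b1, -, b2, -⟩ := h.two_cj hV ha hc n2
    have n : cj Q a ⊓ cj Q b ≤ normalizer ((cj Q a ⊓ cj Q c : Subgroup G) : Set G) :=
      le_normalizer_iff.2 fun u hu v hv => (h.hQ.cj a).conj_mem_of_z_mem inf_le_left
        ⟨hV ha ha, hV hc ha⟩ hu.1 hv
    have := H3.card_sup_mul_card_inf_of_le_normalizer n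
    rw [e, c8, a1, b1] at this
    rw [← mem_sup_of_le_normalizer' n, eq_of_le_of_card_ge (sup_le a2 b2) (by rw [cA ha]; omega)]
    exact hy
  have n0 : g * z * g⁻¹ ≠ 1 * z * 1⁻¹ := by simpa only [one_mul, inv_one, mul_one] using h2
  replace n1 : x * g * z * (x * g)⁻¹ ≠ 1 * z * 1⁻¹ := by
    simpa only [one_mul, inv_one, mul_one] using n1
  obtain ⟨a1, a2, a3, a4⟩ := h.two_cj hV m0 m1 n0
  obtain ⟨-, -, b3, b4⟩ := h.two_cj hV m1 m0 n0.symm
  obtain ⟨-, -, c3, c4⟩ := h.two_cj hV m0 m2 n1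
  obtain ⟨-, -, d3, -⟩ := h.two_cj hV m1 m2 n2
  rw [← cj_one Q] at tr
  rw [← cj_mul, ← cj_mul, mul_one, mul_one] at tr
  have := special_of_three (h.hQ.cj 1).toXS (h.hQ.cj g).toXS (h.hQ.cj (x * g)).toXS m0 m1 m2 n0.symm tr
    hR p2 (a3.trans (AR m0)) (c3.trans (AR m0)) (d3.trans (AR m1)) (fun r hr => by
      have n : cj Q g ⊓ centralizer (V : Set G) ≤
          normalizer ((cj Q 1 ⊓ centralizer (V : Set G) : Subgroup G) : Set G) :=
        le_normalizer_iff.2 fun u hu v hv => ⟨conj_mem_of_mem_normalizer (nA m0 hu.2) hv.1,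
          Subgroup.mul_mem _ (Subgroup.mul_mem _ hu.2 hv.2) (Subgroup.inv_mem _ hu.2)⟩
      have := H3.card_sup_mul_card_inf_of_le_normalizer n
      rw [show cj Q g ⊓ centralizer (V : Set G) ⊓ (cj Q 1 ⊓ centralizer (V : Set G)) =
        cj Q 1 ⊓ cj Q g from le_antisymm (fun _ h => ⟨h.2.1, h.1.1⟩)
          (le_inf (inf_comm (cj Q 1) _ ▸ b3) a3), a1, cA m0, cA m1] at this
      rw [← eq_of_le_of_card_ge (sup_le (AR m1) (AR m0)) (by omega), mem_sup_of_le_normalizer' n] at hr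
      obtain ⟨b, hb, a, ha, rfl⟩ := hr
      obtain ⟨u, hu, v, hv, rfl⟩ := dA m1 m2 m0 n2 n0.symm (by
        rw [← tr]; ext; simp only [mem_inf]; tauto) b hb
      obtain ⟨u', hu', v', hv', rfl⟩ := dA m0 m1 m2 n0 n1 (by
        rw [← tr]; ext; simp only [mem_inf]; tauto) a ha
      exact ⟨u, hu, v * u', mul_mem ⟨hv.2, hv.1⟩ hu', v', hv', by group⟩)
    a4 (inf_comm (cj Q g) (cj Q 1) ▸ b4) c4 a2 (fun u hu u1 => by
      obtain ⟨a, rfl⟩ := isConj_iff.1 ((cjz hu).resolve_left u1)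
      by_contra hc
      have := card_le_of_le (show cj Q a ⊓ centralizer (V : Set G) ≤ V from fun y hy =>
        ((h.hQ.cj a).centralizer_centralizer (hV hu) hu).le ⟨hy.1, fun y' hy' => by_contra fun e =>
          hc ⟨_, AR hu hy', _, AR hu hy, (h.hQ.cj a).commutator_eq_z hy'.1 hy.1 e⟩⟩)
      rw [cA hu, c8] at this
      omega)
  exact ⟨this.1, cR, this.2⟩

end FD

end Cfsg.Agent.H49
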