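import Cfsg.Agent.H49.MonL9

/-! Groups of Monster type: singular subgroups, the group of order `2 ^ 10`. -/

set_option autoImplicit false
set_option maxRecDepth 200000

namespace Cfsg.Agent.H49

open Cfsg Subgroup Cfsg.Agent.H42 Cfsg.Agent.H48 Cfsg.Agent.H43 Cfsg.Agent.H48.Rec

variable {G : Type*} [Group G] [Finite G] {Q S : Subgroup G} {z s : G}
  {θ : centralizer ({z} : Set G) →* Spor.Co1} {R : Lam → G → Prop}

/-- singular subgroups -/
def SgU (Q : Subgroup G) (z : G) (U : Subgroup G) : Prop :=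
  ∀ u ∈ U, u ≠ 1 → ∃ g, g * z * g⁻¹ = u ∧ U ≤ cj Q g

omit [Finite G] in
theorem SgU.cj {U : Subgroup G} (h : SgU Q z U) (k : G) : SgU Q z (cj U k) := fun u hu h1 => by
  obtain ⟨g, e, l⟩ := h _ (mem_cj.1 hu) fun c => h1 (by
    rw [show u = k * (k⁻¹ * u * k) * k⁻¹ by group, c]; group)
  refine ⟨k * g, ?_, by rw [cj_mul]; exact cj_mono l k⟩
  rw [show k * g * z * (k * g)⁻¹ = k * (g * z * g⁻¹) * k⁻¹ by group, e]; group

namespace Ten

variable {E : Subgroup G} {b : G}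

omit [Finite G] in
theorem tr_out (h : Ten Q E z b) {u : G} (hu : u ∈ E) (c : IsConj z u) (a : u ∉ Q) :
    ∃ n ∈ normalizer (E : Set G), n * z * n⁻¹ = u := by
  obtain ⟨n, hn, c'⟩ := h.ex
  have wE := conj_mem_of_mem_normalizer hn h.zE
  obtain ⟨q, hq, e⟩ := h.orb' wE hu c' a
  have e1 : q * n * z * (q * n)⁻¹ = q * (n * z * n⁻¹) * q⁻¹ := by group
  refine e.elim (fun e => ⟨q * n, mul_mem (h.QN hq) hn, e1.trans e⟩) fun e => ?_
  have h1 := h.q_out hu a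
  rw [h.cm h.zE hu, ← e, qz_conj, qz_conj, qz_self, qz_eq_zero.2 (Or.inr c)] at h1
  exact absurd h1 (by decide)

theorem tr (h : Ten Q E z b) {u : G} (hu : u ∈ E) (c : IsConj z u) :
    ∃ n ∈ normalizer (E : Set G), n * z * n⁻¹ = u := by
  by_cases hz : u = z
  · exact ⟨1, one_mem _, by simp [hz]⟩
  by_cases H : ∃ n ∈ normalizer (E : Set G), n⁻¹ * u * n ∉ Q
  · obtain ⟨n, hn, a⟩ := H
    obtain ⟨m, hm, e⟩ := h.tr_out (u := n⁻¹ * u * n)
      (by simpa using conj_mem_of_mem_normalizer (inv_mem hn) hu)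
      (c.trans (isConj_iff.2 ⟨n⁻¹, by simp⟩)) a
    refine ⟨n * m, mul_mem hn hm, ?_⟩
    rw [show n * m * z * (n * m)⁻¹ = n * (m * z * m⁻¹) * n⁻¹ by group, e]; group
  push Not at H
  have uQ : u ∈ Q := by simpa using H 1 (one_mem _)
  have u1 : u ≠ 1 := fun e => h.hQ.ne (isConj_one_left.1 (e ▸ c))
  obtain ⟨q, hq, e⟩ := h.hQ.exists_conj_eq_mul_z uQ u1 hz
  obtain ⟨n, hn, a⟩ := h.ex
  refine absurd (mem_cj.2 ?_) (h.z_notMem a)
  have h1 := H n hn
  have h2 := H (q⁻¹ * n) (mul_mem (inv_mem (h.QN hq)) hn)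
  rw [show (q⁻¹ * n)⁻¹ * u * (q⁻¹ * n) = n⁻¹ * (q * u * q⁻¹) * n by group, e] at h2
  have := mul_mem (inv_mem h1) h2
  rwa [show (n⁻¹ * u * n)⁻¹ * (n⁻¹ * (u * z) * n) = n⁻¹ * z * n by group] at this

end Ten

namespace MS

theorem exists_ten2 (h : MS Q S z s θ R) : ∃ E b, Ten Q E z b ∧ E ⊓ Q = h.pre W8 ∧ Ass θ zt b ∧
    ∀ g k, Ass θ g k → g * zt = zt * g → k ∈ normalizer (E : Set G) := by
  obtain ⟨a, ra⟩ := h.ex2 vO
  obtain ⟨y, hy, e, e'⟩ := h.exists_swap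
  have na : sqNorm vO.1 = 32 := by rw [sqNorm_twoInd, oct0_mem.2]; rfl
  have aa : a * a = 1 := (h.sq_iff ra).2 (by rw [na])
  have aE : a ∈ h.pre W8 := ⟨_, vO_mem, ra⟩
  obtain ⟨ab, bQ⟩ := h.ass_zt ra hy e
  have hF := fun x => h.comm_F ra hy e e' (x := x)
  have yb := conj_mem_of_mem_normalizer (h.sq_swap hy e e') aE
  have ca : IsConj a (y * a * y⁻¹) := isConj_iff.2 ⟨y, rfl⟩
  have ya : ∀ x, y * (x * a) * y⁻¹ = y * x * y⁻¹ * (y * a * y⁻¹) := fun x => (conj_mul ..).symm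
  have bb : y * a * y⁻¹ * (y * a * y⁻¹) = 1 := by rw [conj_mul, aa, mul_one, mul_inv_cancel]
  rw [show y * y * a * (y * y)⁻¹ = y * (y * a * y⁻¹) * y⁻¹ by group] at yb
  generalize y * a * y⁻¹ = b at ab bQ hF yb ca ya bb
  have b1 : b⁻¹ = b := inv_eq_of_mul_eq_one_right bb
  have cb : ∀ x ∈ h.pre W8, x * b = b * x := fun x hx =>
    hF x ⟨h.pre_le _ hx, fun t ht => h.comm8 ht hx⟩
  have sq1 : ∀ x ∈ h.pre W8, x * x = 1 := fun x hx => by
    rcases h.cases8 ra hx with c | c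
    · exact h.p.E_sq ⟨h.pre_le _ hx, c.2⟩
    · have := h.p.E_sq ⟨h.pre_le _ c.1, c.2⟩
      rwa [mul_assoc, ← mul_assoc a, ← h.comm8 hx aE, mul_assoc, aa, mul_one] at this
  let E := ext2 (h.pre W8) b (by rw [bb]; exact one_mem _) fun w hw => by
    rw [← cb w hw, mul_inv_cancel_right]; exact hw
  have EQ : E ⊓ Q = h.pre W8 := le_antisymm (fun x hx => hx.1.resolve_right fun c => bQ (by
    simpa using Q.mul_mem (Q.inv_mem hx.2) (h.pre_le _ c))) (le_inf le_ext2 (h.pre_le _))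
  have nE : ∀ {g k}, Ass θ g k → g * zt = zt * g → k ∈ normalizer (E : Set G) := fun {g k} a hg => by
    have n := h.mem_normalizer_pre a fun _ => W8_smul hg
    refine mem_normalizer_of_conj_mem fun x hx => hx.imp (conj_mem_of_mem_normalizer n) fun c => ?_
    have := mul_mem (conj_mem_of_mem_normalizer n c) (h.conj_b ab bb hF a hg)
    rwa [← mul_assoc, conj_mul, mul_assoc x, bb, mul_one] at this
  have yE : y ∈ normalizer (E : Set G) := by
    have D := fun x => h.conj_mem_between (D := h.pre W8 ⊓ S) ⟨h.z_mem_pre _, h.p.zS⟩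
      ⟨h.s8, h.p.hS.mem⟩ (inf_le_inf_right _ (h.pre_le _)) hy (d := x)
    have k : ∀ x ∈ h.pre W8, y * x * y⁻¹ ∈ E := fun x hx =>
      (h.cases8 ra hx).imp (fun c => (D x c).1) fun c => ya x ▸ (D _ c).1
    refine mem_normalizer_of_conj_mem fun x hx => hx.elim (k x) fun c => ?_
    have := mul_mem (k _ c) (le_ext2 yb)
    rwa [conj_mul, mul_assoc x, bb, mul_one] at this
  refine ⟨E, b, ⟨h.hQ, h.card, fun x hx => hx.elim (sq1 x) fun c => ?_, le_ext2 (h.z_mem_pre _),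
    self_mem_ext2, bQ, EQ ▸ h.card8, fun x hx => hx.imp (h.pre_le _ ·) (h.pre_le _ ·),
    fun t ht => ?_, fun q hq => nE (h.ass_one hq) (by simp),
    fun c => h.not_isConj_of_norm ra na (c.trans ca.symm), ?_, ?_⟩, EQ, ab, fun _ _ => nE⟩
  · have h1 := cb _ c
    rw [mul_assoc, bb, mul_one] at h1
    have h2 := sq1 _ c
    rwa [mul_assoc, ← h1] at h2
  · obtain ⟨v, ⟨w, c⟩, r⟩ := EQ.le ht
    obtain ⟨u, ru⟩ := h.ex2 w
    refine ⟨u, h.mem ru, ?_⟩
    have e1 : u * b * u⁻¹ = b * (b * u * b⁻¹ * u⁻¹) := by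
      rw [b1, ← mul_assoc, ← mul_assoc, ← mul_assoc, bb, one_mul]
    rw [e1, mul_assoc b t]
    exact ((h.uniq r (h.r_comm ab ru)).1 (c.trans (by
      rw [← neg_sub]; exact (cong_neg _).symm))).imp (congrArg _) (congrArg _)
  · obtain ⟨g, hg, n⟩ := exists_g8
    obtain ⟨k, a⟩ := h.exists_ass' g
    refine ⟨y⁻¹ * k * y, mul_mem (mul_mem (inv_mem yE) (nE a hg)) yE, fun c => ?_⟩
    have c1 := (h.swap_mem e).2 c
    rw [show y * (y⁻¹ * k * y * z * (y⁻¹ * k * y)⁻¹) * y⁻¹ = k * (y * z * y⁻¹) * k⁻¹ by group,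
      e] at c1
    have r := h.mul (h.act' a h.r) (h.cg h.r (cong_e8_e8 none (some 17)))
    have c2 : IsConj z (k * s * k⁻¹) := (isConj_iff.2 ⟨y, e⟩).trans (isConj_iff.2 ⟨k, rfl⟩)
    obtain ⟨u, -, c3⟩ := h.p.hS.exists_conj_eq_mul_z c1
      (fun c => h.p.hS.ne (conj_eq_one_iff.1 c)) fun c => h.not_cong_zero (by rw [n]; norm_num)
        (by rw [n]; norm_num) ((h.zero_iff r).2 (Or.inl (by rw [c, h.p.hS.zz])))
    exact h.not_isConj_of_norm r n (c2.trans (isConj_iff.2 ⟨u, c3⟩))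
  · let ψ : ↥(normalizer (E : Set G) ⊓ centralizer {z}) →* Spor.Co1 := θ.comp (inclusion inf_le_right)
    rw [← ψ.ker.card_mul_index, index_ker, ← h.card, ← card_C0]
    refine Nat.mul_le_mul ?_ (card_le_of_le ?_)
    · rw [← card_map_of_injective (subtype_injective _)]
      exact card_le_of_le fun _ ⟨k, hk, c⟩ => c ▸ (h.ker _).1 hk
    · rintro _ ⟨k, rfl⟩
      obtain ⟨g, a⟩ := exists_ass (θ := θ) (mem_centralizer_singleton_iff.1 k.2.2)
      have h1 : k.1 * b * k.1⁻¹ * b ∈ Q := h.pre_le _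
        ((conj_mem_of_mem_normalizer k.2.1 self_mem_ext2).resolve_left fun c => bQ (by
          simpa [mul_assoc] using h.hQ.conj_mem a.inv.comm (h.pre_le _ c)))
      have h2 := (QuotientGroup.eq_one_iff _).2 ((h.ass_mem_iff (((a.mul ab).mul a.inv).mul ab)).1 h1)
      obtain ⟨_, e1⟩ := a
      change mk1 _ = 1 at h2
      simp only [map_mul, map_inv] at h2
      rw [mem_centralizer_singleton_iff, show ψ k = mk1 g from e1.symm, ← mul_inv_eq_iff_eq_mul]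
      exact (eq_inv_of_mul_eq_one_left h2).trans (inv_eq_of_mul_eq_one_right z0_sq)

end MS

end Cfsg.Agent.H49
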