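import Cfsg.Agent.H49.MonS2

/-! Groups of Monster type: classification of singular subgroups. -/

set_option autoImplicit false
set_option maxRecDepth 200000

namespace Cfsg.Agent.H49

open Cfsg Subgroup Cfsg.Agent.H42 Cfsg.Agent.H48 Cfsg.Agent.H43 Cfsg.Agent.H48.Rec

namespace Sx

/-- a matrix moving a class to the standard frame -/
noncomputable def eta : List (List ℤ) :=
  (List.range 24).map fun i => sing5.getD (app 969180346373290121590468760491956833 i) []

/-- candidates for the second generator -/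
def A2 (m : ℕ) : Bool := Nat.ble 4 m && Nat.ble m 255 && !bd m && !bd (Nat.xor m 2)

/-- candidates for the third generator -/
noncomputable def A3 (m : ℕ) : Bool := Nat.ble 8 m && Nat.ble m 255 && !bd m && !bd (Nat.xor m 2) &&
  !bd (Nat.xor m 4) && !bd (Nat.xor m 6) &&
  Nat.ble (ac 3815925697187009029568168262169743235416065 m) 255

theorem okh1 : okp 607961923896350393265979436727768611
    5012053456333777517400160494871028116234241 = true := by decide +kernel

theorem okh2 : okp 10799832442819059348468429145969265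
    1486238458950538992052404071239824927891457 = true := by decide +kernel

theorem okk : okp 803914203172184990046019686045457063
    8225250560209819016565654450866028019736577 = true := by decide +kernel

theorem okb : okp 144393812011059958740125987982315605
    3815925697187009029568168262169743235416065 = true := by decide +kernel

theorem okc : okp 93635745236585159574484297482452332
    21651239021731209459799915968948743187439617 = true := by decide +kernel

theorem step2 : stepB 5012053456333777517400160494871028116234241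
    1486238458950538992052404071239824927891457 D2t A2 (fun m => Nat.beq (Nat.div m 4) 1) = true := by
  decide +kernel

theorem step3 : stepB 8225250560209819016565654450866028019736577
    8225250560209819016565654450866028019736577 D3t A3
    (fun m => Nat.beq (Nat.div m 8) 1 || Nat.beq (Nat.div m 8) 2) = true := by
  decide +kernel

variable {G : Type*} [Group G] [Finite G] {Q S : Subgroup G} {z s : G}
  {θ : centralizer ({z} : Set G) →* Spor.Co1} {R : Lam → G → Prop}

/-- singular subgroups containing the standard four-group -/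
structure St (Q : Subgroup G) (z s : G) (U : Subgroup G) : Prop where
  sg : SgU Q z U
  zU : z ∈ U
  sU : s ∈ U

/-- the classes meeting `U` -/
def Mm {G : Type*} [Group G] (R : Lam → G → Prop) (U : Subgroup G) (m : ℕ) : Prop :=
  ∃ x ∈ U, Co R m x

variable {U : Subgroup G}

omit [Finite G] in
theorem St.le (h : MS Q S z s θ R) (u : St Q z s U) : U ≤ Q ⊓ S := by
  obtain ⟨g, e, l⟩ := u.sg z u.zU h.hQ.ne
  obtain ⟨g', e', l'⟩ := u.sg s u.sU h.p.hS.ne
  rw [h.hQ.cj_eq_cj (k := 1) (by rw [e]; simp), cj_one] at l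
  rw [← h.p.cj_eq (a := 1) (by rw [e']; simp), cj_one] at l'
  exact le_inf l l'

omit [Finite G] in
theorem St.qz (u : St Q z s U) {x : G} (hx : x ∈ U) : qz z x = 0 := by
  rw [qz_eq_zero]
  by_cases h1 : x = 1
  · exact Or.inl h1
  · obtain ⟨g, e, -⟩ := u.sg x hx h1
    exact Or.inr (isConj_iff.2 ⟨g, e⟩)

omit [Finite G] in
theorem Mm.xor (h : MS Q S z s θ R) {m n : ℕ} (a : Mm R U m) (b : Mm R U n) : Mm R U (m ^^^ n) :=
  let ⟨_, hx, c⟩ := a; let ⟨_, hy, d⟩ := b; ⟨_, mul_mem hx hy, co_mul h c d⟩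

theorem Mm.nb (h : MS Q S z s θ R) (u : St Q z s U) {m : ℕ} (hm : m < 4096) (a : Mm R U m) :
    bd m = false := let ⟨_, hx, c⟩ := a; (qz_co h hm c).1 (u.qz hx)

theorem Mm.nb2 (h : MS Q S z s θ R) (u : St Q z s U) {m n : ℕ} (hm : m < 4096) (hn : n < 4096)
    (a : Mm R U m) (b : Mm R U n) : bd (Nat.xor m n) = false :=
  (a.xor h b).nb h u (Nat.xor_lt_two_pow (n := 12) hm hn)

theorem St.act (h : MS Q S z s θ R) (u : St Q z s U) {g I : ℕ} (ok : okp g I = true) :
    ∃ k, St Q z s (cj U k) ∧ ∀ m, Mm R U m → Mm R (cj U k) (ac I m) := by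
  obtain ⟨k, e1, e2, a⟩ := co_act h ok
  exact ⟨k, ⟨u.sg.cj k, e1 ▸ conj_mem_cj k u.zU, e2 ▸ conj_mem_cj k u.sU⟩,
    fun m ⟨x, hx, c⟩ => ⟨_, conj_mem_cj k hx, a m x c⟩⟩

omit [Finite G] in
theorem St.one (h : MS Q S z s θ R) (u : St Q z s U) : Mm R U 1 := ⟨s, u.sU, co_s h⟩

omit [Finite G] in
theorem St.zero (h : MS Q S z s θ R) (u : St Q z s U) : Mm R U 0 :=
  ⟨z, u.zU, (co_zero h).2 (Or.inr rfl)⟩

theorem perp0 (h : MS Q S z s θ R) (u : St Q z s U) (a : Mm R U 2) {m : ℕ} (hm : m < 4096)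
    (b : Mm R U m) : m ≤ 255 := by
  obtain ⟨x, hx, v, r, e⟩ := a.xor h (u.one h)
  obtain ⟨y, hy, w, r', e'⟩ := b
  obtain ⟨η, hη⟩ := exists_isMat (R := eta) (by decide +kernel)
  have t : allB (fun i => Nat.beq (kapL (lact eta (bL12.getD i []))) (fld 24 J12 i)) 12 = true := by
    decide +kernel
  have n0 : ¬ cong 0 v := fun c => absurd ((cong_iff_kap.1 c).symm.trans xl_kap.zero)
    (by rw [e]; decide +kernel)
  obtain ⟨k, ak, ek⟩ := h.exists_conj r h.r n0 (g := η) (cong_iff_kap.2 (by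
    rw [kap_act hη t e, kap_e8]; decide +kernel))
  obtain ⟨g, eg, l⟩ := u.sg x hx fun c => n0 ((h.zero_iff r).2 (Or.inl c))
  have r2 := h.act' ak r'
  have h1 : k * y * k⁻¹ ∈ S := by
    rw [← cj_one S, h.p.cj_eq (a := 1) (b := k * g) (by rw [← ek, ← eg]; group), cj_mul]
    exact conj_mem_cj k (l hy)
  obtain ⟨n, hn, w', r3, e3⟩ := co_ex h ⟨h.mem r2, h1⟩
  have e4 := cong_iff_kap.1 ((h.uniq r2 r3).2 (Or.inl rfl))
  rw [kap_act hη t e', e3] at e4
  have c1 : allB (fun n => Nat.beq (Nat.mod (kc n) 4096) 0) 4096 = true := by decide +kernel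
  have c2 : allB (fun m => !Nat.beq (Nat.mod (xorC (fld 24 J12) m 12) 4096) 0 || Nat.ble m 255)
      4096 = true := by decide +kernel
  have c3 := of_allB c2 hm
  rw [e4, of_allB c1 hn] at c3
  exact ble_iff.1 c3

theorem perp (h : MS Q S z s θ R) (u : St Q z s U) {g I : ℕ} (ok : okp g I = true) {n : ℕ}
    (e : ac I n = 2) (a : Mm R U n) {m : ℕ} (b : Mm R U m) : ac I m ≤ 255 := by
  obtain ⟨k, u', t⟩ := u.act h ok
  exact perp0 h u' (e ▸ t n a) (ac_lt _ _) (t m b)

theorem eq_pre (h : MS Q S z s θ R) (u : St Q z s U) {k : ℕ} (hk : k ≤ 4)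
    (h1 : ∀ m < 2 ^ k, Mm R U m) (h2 : ∀ m < 4096, Mm R U m → m < 2 ^ k) :
    U = h.pre (spK K5 k) := by
  have c : ∀ k ≤ 4, ∀ m < 2 ^ k, kc m = xorC (fld 24 K5) m k := by decide +kernel
  refine le_antisymm (fun x hx => ?_) ?_
  · obtain ⟨m, hm, v, r, e⟩ := co_ex h (u.le h hx)
    have := h2 m hm ⟨x, hx, v, r, e⟩
    exact ⟨v, ⟨m, this, e.trans (c k hk m this)⟩, r⟩
  · rintro x ⟨v, ⟨m, hm, e⟩, r⟩
    obtain ⟨y, hy, d⟩ := h1 m hm
    rcases co_uniq h d ⟨v, r, e.trans (c k hk m hm).symm⟩ with e | e <;> rw [e]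
    exacts [hy, mul_mem hy u.zU]

omit [Finite G] in
theorem up (h : MS Q S z s θ R) {k n j : ℕ} (h1 : ∀ m < 2 ^ k, Mm R U m) (a : Mm R U n)
    (c : ∀ m < j, m < 2 ^ k ∨ m ^^^ n < 2 ^ k) : ∀ m < j, Mm R U m := fun m hm =>
  (c m hm).elim (h1 m) fun d => by
    have := (h1 _ d).xor h a
    rwa [Nat.xor_assoc, Nat.xor_self, Nat.xor_zero] at this

theorem down (h : MS Q S z s θ R) {P : Subgroup G → Prop} (hP : ∀ U k, P (cj U k) → P U) {k g I : ℕ}
    (ok : okp g I = true) (c : ∀ n < 2 ^ k, ∃ m < 2 ^ k, ac I m = n) (m : ℕ)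
    (H : ∀ U, St Q z s U → (∀ m < 2 ^ k, Mm R U m) → Mm R U (ac I m) → P U) :
    ∀ U, St Q z s U → (∀ m < 2 ^ k, Mm R U m) → Mm R U m → P U := fun U u h1 a => by
  obtain ⟨y, u', t⟩ := u.act h ok
  refine hP U y (H _ u' (fun n hn => ?_) (t m a))
  obtain ⟨m, hm, rfl⟩ := c n hn
  exact t m (h1 m hm)

theorem mem_A3 (h : MS Q S z s θ R) (u : St Q z s U) (h1 : ∀ m < 2 ^ 3, Mm R U m) {m : ℕ}
    (hm : m < 4096) (a : Mm R U m) (h8 : 8 ≤ m) : A3 m = true := by
  simp only [A3, Bool.and_eq_true, ble_iff, Bool.not_eq_true']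
  exact ⟨⟨⟨⟨⟨⟨h8, perp0 h u (h1 2 (by norm_num)) hm a⟩, a.nb h u hm⟩,
    a.nb2 h u hm (by norm_num) (h1 2 (by norm_num))⟩, a.nb2 h u hm (by norm_num) (h1 4 (by norm_num))⟩,
    a.nb2 h u hm (by norm_num) (h1 6 (by norm_num))⟩,
    perp h u okb (by decide +kernel) (h1 4 (by norm_num)) a⟩

theorem classify (h : MS Q S z s θ R) {P : Subgroup G → Prop} (hP : ∀ U k, P (cj U k) → P U)
    (H : ∀ k, 1 ≤ k → k ≤ 4 → P (h.pre (spK K5 k)))
    (H5 : ∀ U, St Q z s U → (∀ m < 2 ^ 3, Mm R U m) → Mm R U 16 →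
      (∀ m < 4096, Mm R U m → m < 8 ∨ m / 8 = 2) → P U) (u : St Q z s U) : P U := by
  have L3 : ∀ U, St Q z s U → (∀ m < 2 ^ 3, Mm R U m) → P U := fun U u h1 => by
    by_cases c : ∀ m < 4096, Mm R U m → m < 2 ^ 3
    · exact eq_pre h u (by norm_num) h1 c ▸ H 3 (by norm_num) (by norm_num)
    push Not at c
    obtain ⟨m, hm, a, h8⟩ := c
    have d := down h hP okk (k := 3) (by decide +kernel)
    refine bfs (P := fun m => ∀ U, St Q z s U → (∀ m < 2 ^ 3, Mm R U m) → Mm R U m → P U) step3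
      (fun m hm t U u h1 a => ?_) d d m hm (mem_A3 h u h1 hm a h8) U u h1 a
    simp only [Bool.or_eq_true, beq_iff] at t
    rcases t with t | t
    · have h2 : ∀ n < 2 ^ 4, Mm R U n := up h h1 a ((by decide +kernel : ∀ m < 16, m / 8 = 1 →
        ∀ n < 2 ^ 4, n < 2 ^ 3 ∨ n ^^^ m < 2 ^ 3) m (by change m / 8 = 1 at t; omega) t)
      refine eq_pre h u le_rfl h2 (fun n hn b => ?_) ▸ H 4 (by norm_num) le_rfl
      by_contra c
      have c1 : allB (fun n => !A3 n || Nat.ble n 15 || bd (Nat.xor n 8) || bd (Nat.xor n 10) ||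
        bd (Nat.xor n 12) || bd (Nat.xor n 14)) 4096 = true := by decide +kernel
      have := of_allB c1 hn
      rw [mem_A3 h u h1 hn b (by omega), b.nb2 h u hn (by norm_num) (h2 8 (by norm_num)),
        b.nb2 h u hn (by norm_num) (h2 10 (by norm_num)),
        b.nb2 h u hn (by norm_num) (h2 12 (by norm_num)),
        b.nb2 h u hn (by norm_num) (h2 14 (by norm_num))] at this
      simp only [Bool.not_true, Bool.false_or, Bool.or_false, ble_iff] at this
      omega
    · have h2 : Mm R U 16 := by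
        change m / 8 = 2 at t
        have := a.xor h (h1 (m ^^^ 16) ((by decide +kernel : ∀ m < 24, m / 8 = 2 →
          m ^^^ 16 < 2 ^ 3) m (by omega) t))
        rwa [← Nat.xor_assoc, Nat.xor_self, Nat.zero_xor] at this
      refine H5 U u h1 h2 fun n hn b => or_iff_not_imp_left.2 fun c => ?_
      have c1 : allB (fun n => !A3 n || Nat.beq (Nat.div n 8) 2 ||
        !Nat.ble (ac 21651239021731209459799915968948743187439617 n) 255) 4096 = true := by
        decide +kernel
      have := of_allB c1 hn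
      rw [mem_A3 h u h1 hn b (by omega), ble_iff.2 (perp h u okc (by decide +kernel) h2 b)] at this
      simp only [Bool.not_true, Bool.false_or, Bool.or_false, beq_iff] at this
      exact this
  have L2 : ∀ U, St Q z s U → (∀ m < 2 ^ 2, Mm R U m) → P U := fun U u h1 => by
    by_cases c : ∀ m < 4096, Mm R U m → m < 2 ^ 2
    · exact eq_pre h u (by norm_num) h1 c ▸ H 2 (by norm_num) (by norm_num)
    push Not at c
    obtain ⟨m, hm, a, h8⟩ := c
    refine bfs (P := fun m => ∀ U, St Q z s U → (∀ m < 2 ^ 2, Mm R U m) → Mm R U m → P U) step2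
      (fun m hm t U u h1 a => L3 U u (up h h1 a ?_)) (down h hP okh1 (by decide +kernel))
      (down h hP okh2 (by decide +kernel)) m hm ?_ U u h1 a
    · have t : m / 4 = 1 := beq_iff.1 t
      exact (by decide +kernel : ∀ m < 8, m / 4 = 1 →
        ∀ n < 2 ^ 3, n < 2 ^ 2 ∨ n ^^^ m < 2 ^ 2) m (by omega) t
    · simp only [A2, Bool.and_eq_true, ble_iff, Bool.not_eq_true']
      exact ⟨⟨⟨h8, perp0 h u (h1 2 (by norm_num)) hm a⟩, a.nb h u hm⟩,
        a.nb2 h u hm (by norm_num) (h1 2 (by norm_num))⟩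
  have h1 : ∀ U, St Q z s U → ∀ m < 2 ^ 1, Mm R U m := fun U u m hm => by
    rcases (by omega : m = 0 ∨ m = 1) with rfl | rfl
    exacts [u.zero h, u.one h]
  by_cases c : ∀ m < 4096, Mm R U m → m < 2 ^ 1
  · exact eq_pre h u (by norm_num) (h1 U u) c ▸ H 1 (by norm_num) (by norm_num)
  push Not at c
  obtain ⟨m, hm, a, h8⟩ := c
  have tr : ∀ {g I}, okp g I = true → (∀ n < 2, ∀ m < 4096, ac I m = n → m < 2) → ∀ m,
      (∀ U, St Q z s U → ac I m < 4096 → 2 ≤ ac I m → Mm R U (ac I m) → P U) →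
      ∀ U, St Q z s U → m < 4096 → 2 ≤ m → Mm R U m → P U := fun ok c m H U u hm h2 a => by
    obtain ⟨y, u', t⟩ := u.act h ok
    exact hP U y (H _ u' (ac_lt _ _) (not_lt.1 fun d => by have := c _ d m hm rfl; omega) (t m a))
  have cv : ∀ {I}, allB (fun m => Nat.ble 2 (ac I m) || Nat.ble m 1) 4096 = true →
      ∀ n < 2, ∀ m < 4096, ac I m = n → m < 2 := fun c n hn m hm e => by
    have := of_allB c hm
    simp only [Bool.or_eq_true, ble_iff] at this
    omega
  refine bfs (P := fun m => ∀ U, St Q z s U → m < 4096 → 2 ≤ m → Mm R U m → P U) step1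
    (fun m hm t U u _ h2 a => L2 U u (up h (h1 U u) a ?_)) (tr ok1 (cv (by decide +kernel)))
    (tr ok2 (cv (by decide +kernel))) m hm (by rw [a.nb h u hm]; rfl) U u hm h8 a
  exact (by decide +kernel : ∀ m ≤ 3, 2 ≤ m → ∀ n < 2 ^ 2, n < 2 ^ 1 ∨ n ^^^ m < 2 ^ 1) m
    (ble_iff.1 t) h2

end Sx

end Cfsg.Agent.H49
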