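import Cfsg.Agent.H49.MonS3

/-! Groups of Monster type: normalizers of singular subgroups. -/

set_option autoImplicit false
set_option maxRecDepth 200000

namespace Cfsg.Agent.H49

open Cfsg Subgroup Cfsg.Agent.H42 Cfsg.Agent.H48 Cfsg.Agent.H43 Cfsg.Agent.H48.Rec
open scoped Pointwise

namespace Sx

variable {G : Type*} [Group G]

theorem mem_normalizer_cj {A : Subgroup G} {k n : G} :
    n ∈ normalizer (cj A k : Set G) ↔ k⁻¹ * n * k ∈ normalizer (A : Set G) := by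
  rw [← cj_eq_iff, ← cj_eq_iff, ← cj_mul]
  constructor
  · intro e
    rw [mul_assoc, cj_mul, e, cj_inv_cj]
  · intro e
    rw [show n * k = k * (k⁻¹ * n * k) by group, cj_mul, e]

theorem normalizer_le_of [Finite G] {U L : Subgroup G} (h2 : ∀ u ∈ U, u * u = 1)
    (hQ : ∀ u ∈ U, u ≠ 1 → ∃ P : Subgroup G, XS P u ∧ U ≤ P ∧ P ≤ L)
    (hC : centralizer (U : Set G) ≤ L) : normalizer (U : Set G) ≤ L := fun n hn => by
  obtain ⟨g, hg, e⟩ := exists_conj_eq_aut h2 hQ (U.normalizerMonoidHom ⟨n, hn⟩)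
  have : g⁻¹ * n ∈ centralizer (U : Set G) := fun u hu => by
    have e1 : g * u * g⁻¹ = n * u * n⁻¹ := e ⟨u, hu⟩
    calc u * (g⁻¹ * n) = g⁻¹ * (g * u * g⁻¹) * n := by group
      _ = _ := by rw [e1]; group
  simpa using mul_mem hg (hC this)

variable [Finite G] {Q S : Subgroup G} {z s : G}
  {θ : centralizer ({z} : Set G) →* Spor.Co1} {R : Lam → G → Prop} {U : Subgroup G}

/-- conjugation by an element centralizing `x` preserves the type of products with `x` -/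
theorem bd_conj (h : MS Q S z s θ R) {k x y : G} {m n l : ℕ} (hm : m < 4096) (hn : n < 4096)
    (hl : l < 4096) (a : Co R m y) (b : Co R n (k * y * k⁻¹)) (c : Co R l x) {l' : ℕ}
    (hl' : l' < 4096) (d : Co R l' (k * x * k⁻¹)) : bd (m ^^^ l) = bd (n ^^^ l') := by
  have h1 := qz_co h (Nat.xor_lt_two_pow (n := 12) hm hl) (co_mul h a c)
  have h2 := qz_co h (Nat.xor_lt_two_pow (n := 12) hn hl') (co_mul h b d)
  rw [conj_mul, qz_conj] at h2
  have := h1.symm.trans h2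
  revert this
  cases bd (m ^^^ l) <;> cases bd (n ^^^ l') <;> simp

omit [Finite G] in
theorem co_pre (h : MS Q S z s θ R) {k : ℕ} (hk : k ≤ 4) {x : G} :
    x ∈ h.pre (spK K5 k) ↔ ∃ m < 2 ^ k, Co R m x := by
  have c : ∀ k ≤ 4, ∀ m < 2 ^ k, kc m = xorC (fld 24 K5) m k := by decide +kernel
  exact ⟨fun ⟨v, ⟨m, hm, e⟩, r⟩ => ⟨m, hm, v, r, e.trans (c k hk m hm).symm⟩,
    fun ⟨m, hm, v, r, e⟩ => ⟨v, ⟨m, hm, e.trans (c k hk m hm)⟩, r⟩⟩

theorem cent4 (h : MS Q S z s θ R) :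
    centralizer (h.pre (spK K5 3) : Set G) ≤ normalizer (h.pre (spK K5 4) : Set G) := fun k hk => by
  have mem : ∀ {m x}, m < 2 ^ 3 → Co R m x → k * x * k⁻¹ = x := fun hm c => by
    rw [← hk _ ((co_pre h (by norm_num)).2 ⟨_, hm, c⟩), mul_inv_cancel_right]
  have nE : k ∈ normalizer ((Q ⊓ S : Subgroup G) : Set G) := h.p.CV_le_normalizer_E
    (Four.mem_centralizer.2 ⟨mul_inv_eq_iff_eq_mul.1 (mem (by norm_num) ((co_zero h).2 (Or.inr rfl))),
      mul_inv_eq_iff_eq_mul.1 (mem (by norm_num) (co_s h))⟩)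
  obtain ⟨x0, c0⟩ := co_sur h 8
  have key : k * x0 * k⁻¹ ∈ h.pre (spK K5 4) := by
    obtain ⟨m, hm, c⟩ := co_ex h (conj_mem_of_mem_normalizer nE (co_mem h (by norm_num) c0))
    refine (co_pre h le_rfl).2 ⟨m, not_le.1 fun h16 => ?_, c⟩
    have b0 : bd m = false := by
      rw [← qz_co h hm c, qz_conj, qz_co h (by norm_num) c0]; decide +kernel
    have c1 : allB (fun m => bd m || Nat.ble m 15 || force (fld 12 TH12 m) fun t => bd t &&
        bd (Nat.xor t m) && !bd (Nat.xor t 2) && !bd (Nat.xor t 4) && !bd (Nat.xor t 6)) 4096 = true := by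
      decide +kernel
    have c2 : allB (fun t => !bd t || !bd (Nat.xor t 8) || bd (Nat.xor t 2) || bd (Nat.xor t 4) ||
        bd (Nat.xor t 6)) 4096 = true := by decide +kernel
    have c3 := of_allB c1 hm
    have ht : fld 12 TH12 m < 4096 := fld_lt _ _ _
    rw [b0, force_eq, ble_false_iff.2 (by omega)] at c3
    generalize fld 12 TH12 m = t at c3 ht
    obtain ⟨u, cu⟩ := co_sur h t
    obtain ⟨t', ht', cu'⟩ := co_ex h (conj_mem_of_mem_normalizer (inv_mem nE) (co_mem h ht cu))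
    have cu2 : Co R t (k * (k⁻¹ * u * k⁻¹⁻¹) * k⁻¹) := by
      rwa [show k * (k⁻¹ * u * k⁻¹⁻¹) * k⁻¹ = u by group]
    have tr : ∀ l < 2 ^ 3, bd (t' ^^^ l) = bd (t ^^^ l) := fun l hl => by
      obtain ⟨x, cx⟩ := co_sur h l
      exact bd_conj h ht' ht (by omega) cu' cu2 cx (by omega) ((mem hl cx).symm ▸ cx)
    have t8 := bd_conj h ht' ht (by norm_num) cu' cu2 c0 hm c
    have t0 := tr 0 (by norm_num)
    rw [Nat.xor_zero, Nat.xor_zero] at t0
    have c4 := of_allB c2 ht'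
    change (!bd t' || !bd (t' ^^^ 8) || bd (t' ^^^ 2) || bd (t' ^^^ 4) || bd (t' ^^^ 6)) = true at c4
    change (false || false || bd t && bd (t ^^^ m) && !bd (t ^^^ 2) && !bd (t ^^^ 4) &&
      !bd (t ^^^ 6)) = true at c3
    rw [t0, t8, tr 2 (by norm_num), tr 4 (by norm_num), tr 6 (by norm_num)] at c4
    revert c3 c4
    cases bd t <;> cases bd (t ^^^ m) <;> cases bd (t ^^^ 2) <;> cases bd (t ^^^ 4) <;>
      cases bd (t ^^^ 6) <;> simp
  refine mem_normalizer_of_conj_mem fun x hx => ?_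
  obtain ⟨m, hm, c⟩ := (co_pre h le_rfl).1 hx
  by_cases h8 : m < 2 ^ 3
  · rw [mem h8 c]; exact hx
  · have h1 : m ^^^ 8 < 2 ^ 3 := (by decide +kernel : ∀ m < 2 ^ 4, ¬ m < 2 ^ 3 → m ^^^ 8 < 2 ^ 3) m hm h8
    have h2 := mem h1 (co_mul h c c0)
    rw [← conj_mul, ← eq_mul_inv_iff_mul_eq] at h2
    rw [h2]
    exact mul_mem (mul_mem hx ((co_pre h le_rfl).2 ⟨8, by norm_num, c0⟩)) (inv_mem key)

theorem norm4 (h : MS Q S z s θ R) :
    normalizer (h.pre (spK K5 3) : Set G) ≤ normalizer (h.pre (spK K5 4) : Set G) := by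
  have l : h.pre (spK K5 3) ≤ h.pre (spK K5 4) := fun x hx =>
    let ⟨m, hm, c⟩ := (co_pre h (by norm_num)).1 hx; (co_pre h le_rfl).2 ⟨m, by omega, c⟩
  refine normalizer_le_of (fun u hu => h.p.E_sq (h.le5 (l hu))) (fun u hu h1 => ?_) (cent4 h)
  obtain ⟨P, p1, p2, -⟩ := h.cover5 u (l hu) h1
  exact ⟨P, p1, l.trans p2, fun x hx => mem_normalizer_of_conj_mem fun y hy =>
    p1.conj_mem_of_z_mem p2 (l hu) hx hy⟩

/-- the pattern of a class with respect to seven sextets -/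
def pat (t : ℕ) : List Bool := [2, 4, 6, 16, 18, 20, 22].map fun x => bd (t ^^^ x)

theorem cc_lt (i j e : ℕ) (he : e < 2) : cc i ^^^ cc j ^^^ e < 4096 :=
  Nat.xor_lt_two_pow (n := 12) (Nat.xor_lt_two_pow (fld_lt _ _ _) (fld_lt _ _ _)) (by omega)

theorem cent5 (h : MS Q S z s θ R) (u : St Q z s U) (h1 : ∀ m < 2 ^ 3, Mm R U m) (h2 : Mm R U 16)
    {k : G} (hk : k ∈ centralizer (U : Set G)) : ∃ g, Ass θ g k ∧ g * zt = zt * g := by
  obtain ⟨c, hc, τ, a⟩ := h.exists_mono (hk z u.zU).symm (hk s u.sU).symm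
  refine ⟨_, a, ?_⟩
  have key : ∀ i ∈ toSet oct0, τ.1 i ∈ toSet oct0 := fun i hi => by
    obtain ⟨j, ji, H⟩ := (by decide +kernel : ∀ i ∈ toSet oct0, ∃ j : GolayPt, i ≠ j ∧
      allB (fun p => allB (fun q => allB (fun e => Nat.beq p q || H42.tb oct0 p ||
        !(pat (cc (idx i) ^^^ cc (idx j) ^^^ 1) == pat (cc p ^^^ cc q ^^^ e))) 2) 24) 24 = true) i hi
    obtain ⟨e, he, k1⟩ := mono_fp (c := c) (hc := hc) (τ := τ) ji
    obtain ⟨y, r⟩ := h.ex2 (fp i j)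
    have e1 : pat (cc (idx i) ^^^ cc (idx j) ^^^ 1) =
        pat (cc (idx (τ.1 i)) ^^^ cc (idx (τ.1 j)) ^^^ e) := List.map_congr_left fun l hl => by
      obtain ⟨x, hx, cx⟩ : Mm R U l := by
        rcases (by decide : ∀ l ∈ [2, 4, 6, 16, 18, 20, 22], l < 2 ^ 3 ∨ l ^^^ 16 < 2 ^ 3) l hl with d | d
        · exact h1 l d
        · have := (h1 _ d).xor h h2
          rwa [Nat.xor_assoc, Nat.xor_self, Nat.xor_zero] at this
      have hl' : l < 4096 := (by decide : ∀ l ∈ [2, 4, 6, 16, 18, 20, 22], l < 4096) l hl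
      exact bd_conj h (k := k) (cc_lt _ _ _ (by norm_num)) (cc_lt _ _ _ he) hl' ⟨_, r, kap_fp i j⟩
        ⟨_, h.act' a r, k1⟩ cx hl' (by rw [← hk x hx, mul_inv_cancel_right]; exact cx)
    have := of_allB (of_allB (of_allB H (idx_lt (τ.1 i))) (idx_lt (τ.1 j))) he
    rw [e1, beq_self_eq_true, beq_false_iff.2 fun e => ji (τ.1.injective (idx_injective e)),
      H42.tb_eq] at this
    simpa using this
  have e : τ.1 • toSet oct0 = toSet oct0 := Finset.eq_of_subset_of_card_le (fun x hx => by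
    obtain ⟨i, hi, rfl⟩ := Finset.mem_smul_finset.1 hx
    exact key i hi) (Finset.card_smul_finset _ _).ge
  have e1 := permEl_conj_signEl τ _ isWord_oct0
  simp only [e] at e1
  rw [zt, mul_assoc, mul_inv_eq_iff_eq_mul.1 e1, ← mul_assoc, ← mul_assoc, signEl_comm]

theorem norm5 (h : MS Q S z s θ R) {E : Subgroup G} {b : G} (t : Ten Q E z b)
    (EQ : E ⊓ Q = h.pre W8)
    (nE : ∀ g k, Ass θ g k → g * zt = zt * g → k ∈ normalizer (E : Set G)) (u : St Q z s U)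
    (h1 : ∀ m < 2 ^ 3, Mm R U m) (h2 : Mm R U 16)
    (h3 : ∀ m < 4096, Mm R U m → m < 8 ∨ m / 8 = 2) :
    normalizer (U : Set G) ≤ normalizer (E : Set G) := by
  have l : U ≤ E := fun x hx => by
    obtain ⟨m, hm, v, r, e⟩ := co_ex h (u.le h hx)
    have h4 := h3 m hm ⟨x, hx, v, r, e⟩
    obtain ⟨n, hn, e'⟩ := (by decide +kernel : ∀ m < 24, m < 8 ∨ m / 8 = 2 →
      ∃ n < 2 ^ 8, kc m = xorC (fld 24 K8) n 8) m (by omega) h4
    exact (EQ.ge ⟨v, W8_eq.ge ⟨n, hn, e.trans e'⟩, r⟩).1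
  refine normalizer_le_of (fun x hx => t.sq x (l hx)) (fun x hx x1 => ?_) fun k hk =>
    let ⟨g, a, e⟩ := cent5 h u h1 h2 hk; nE g k a e
  obtain ⟨g, e, l'⟩ := u.sg x hx x1
  obtain ⟨n, hn, e'⟩ := t.tr (l hx) (isConj_iff.2 ⟨g, e⟩)
  rw [h.hQ.cj_eq_cj (e.trans e'.symm)] at l'
  refine ⟨cj Q n, e' ▸ (h.hQ.cj n).toXS, l', fun y hy => ?_⟩
  have := mul_mem (mul_mem hn (t.QN (mem_cj.1 hy))) (inv_mem hn)
  rwa [show n * (n⁻¹ * y * n) * n⁻¹ = y by group] at this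

end Sx

open Sx in
theorem MS.sing {G : Type*} [Group G] [Finite G] {Q S : Subgroup G} {z s : G}
    {θ : centralizer ({z} : Set G) →* Spor.Co1} {R : Lam → G → Prop} (h : MS Q S z s θ R)
    {E : Subgroup G} {b : G} (t : Ten Q E z b) (EQ : E ⊓ Q = h.pre W8)
    (nE : ∀ g k, Ass θ g k → g * zt = zt * g → k ∈ normalizer (E : Set G)) {U : Subgroup G}
    (hU : U ≠ ⊥) (sU : SgU Q z U) :
    ∃ g, ∃ X ∈ [zpowers z, closure {z, s}, h.pre (spK K5 2), h.pre (spK K5 4), E],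
      normalizer (U : Set G) ≤ normalizer (cj X g : Set G) := by
  let P : Subgroup G → Prop := fun U => ∃ g, ∃ X ∈ [zpowers z, closure {z, s}, h.pre (spK K5 2),
    h.pre (spK K5 4), E], normalizer (U : Set G) ≤ normalizer (cj X g : Set G)
  have hP : ∀ U k, P (cj U k) → P U := fun U k ⟨g, X, hX, l⟩ => ⟨k⁻¹ * g, X, hX, fun n hn => by
    rw [cj_mul, mem_normalizer_cj]
    exact l (mem_normalizer_cj.2 (by simpa [mul_assoc] using hn))⟩
  have A : ∀ U, Sx.St Q z s U → P U := fun U u => by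
    refine classify h hP (fun k k1 k4 => ?_) (fun U u h1 h2 h3 => ⟨1, E, by simp,
      by rw [cj_one]; exact norm5 h t EQ nE u h1 h2 h3⟩) u
    rcases (by omega : k = 1 ∨ k = 2 ∨ k = 3 ∨ k = 4) with rfl | rfl | rfl | rfl
    · refine ⟨1, closure {z, s}, by simp, ?_⟩
      rw [cj_one]
      refine (congrArg (fun X : Subgroup G => normalizer (X : Set G)) (le_antisymm (fun x hx => ?_) ?_)).le
      · obtain ⟨m, hm, c⟩ := (co_pre h (by norm_num)).1 hx
        rw [h.p.four.mem_closure]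
        rcases (by omega : m = 0 ∨ m = 1) with rfl | rfl
        · exact ((co_zero h).1 c).imp id Or.inl
        · exact Or.inr (Or.inr ((co_uniq h (co_s h) c).imp id fun e => e.trans (h.hQ.cen s h.p.xQ)))
      · rw [closure_le]
        rintro _ (rfl | rfl)
        exacts [h.z_mem_pre _, (co_pre h (by norm_num)).2 ⟨1, by norm_num, co_s h⟩]
    · exact ⟨1, h.pre (spK K5 2), by simp, by rw [cj_one]⟩
    · exact ⟨1, h.pre (spK K5 4), by simp, by rw [cj_one]; exact norm4 h⟩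
    · exact ⟨1, h.pre (spK K5 4), by simp, by rw [cj_one]⟩
  have B : ∀ U, SgU Q z U → z ∈ U → P U := fun U sU zU => by
    by_cases c : U ≤ zpowers z
    · exact ⟨1, zpowers z, by simp, by rw [cj_one, le_antisymm c (zpowers_le.2 zU)]⟩
    obtain ⟨x, hx, n⟩ := SetLike.not_le_iff_exists.1 c
    rw [h.hQ.mem_Z, not_or] at n
    obtain ⟨g, e, l⟩ := sU z zU h.hQ.ne
    rw [h.hQ.cj_eq_cj (k := 1) (by rw [e]; simp), cj_one] at l
    obtain ⟨g', e', -⟩ := sU x hx n.1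
    obtain ⟨k, hk, e1⟩ := h.conj_of_isConj (l hx) h.p.xQ (isConj_iff.2 ⟨g', e'⟩)
      (h.e8_spec h.r).1 n.2 h.p.ne
    refine hP U k (A _ ⟨sU.cj k, ?_, e1 ▸ conj_mem_cj k hx⟩)
    have := conj_mem_cj k zU
    rwa [mem_centralizer_singleton_iff.1 hk, mul_inv_cancel_right] at this
  obtain ⟨⟨x, hx⟩, x1⟩ := ne_bot_iff_exists_ne_one.1 hU
  obtain ⟨g, e, -⟩ := sU x hx fun c => x1 (Subtype.ext c)
  exact hP U g⁻¹ (B _ (sU.cj _) (mem_cj.2 (by simpa [e] using hx)))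

end Cfsg.Agent.H49
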