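import Cfsg.Agent.H49.MonS4
import Cfsg.Prelude.Def_CaseTheorems

/-! Groups of Monster type: generation of singular subgroups, lists of 2-local subgroups. -/

set_option autoImplicit false
set_option maxRecDepth 200000

namespace Cfsg.Agent.H49

open Cfsg Subgroup Cfsg.Agent.H42 Cfsg.Agent.H48 Cfsg.Agent.H43 Cfsg.Agent.H48.Rec

variable {G : Type*} [Group G] [Finite G]

/-- pairwise perpendicular conjugates of `z` generate a singular subgroup -/
theorem SgU.closure {Q : Subgroup G} {z : G} (h : LX Q z) {M : Set G}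
    (hM : ∀ m ∈ M, ∃ g, g * z * g⁻¹ = m ∧ M ⊆ H49.cj Q g) : SgU Q z (closure M) := by
  have key : ∀ m ∈ M, ∀ u ∈ Subgroup.closure M,
      (u ≠ 1 → ∃ g, g * z * g⁻¹ = u ∧ Subgroup.closure M ≤ H49.cj Q g) →
      (u * m ≠ 1 → ∃ g, g * z * g⁻¹ = u * m ∧ Subgroup.closure M ≤ H49.cj Q g) := by
    intro m hm u hu H h1
    obtain ⟨g, e, l⟩ := hM m hm
    have l' : Subgroup.closure M ≤ H49.cj Q g := (closure_le _).2 l
    have p := h.cj g
    rw [e] at p
    by_cases u1 : u = 1
    · exact ⟨g, by rw [u1, one_mul, e], l'⟩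
    obtain ⟨k, ek, lk⟩ := H u1
    obtain ⟨q, hq, eq⟩ := p.exists_conj_eq_mul_z (l' hu) u1 fun c => h1 (by rw [c, p.zz])
    refine ⟨q * k, by rw [← eq, ← ek]; group, ?_⟩
    rw [cj_mul, ← cj_eq_iff.2 (mem_normalizer_of_conj_mem fun y hy =>
      p.conj_mem_of_z_mem l' (subset_closure hm) hq hy)]
    exact cj_mono lk q
  intro u hu
  induction hu using closure_induction_right with
  | one => exact fun c => absurd rfl c
  | mul_right x hx y hy ih => exact key y hy x hx ih
  | mul_inv_cancel x hx y hy ih =>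
    obtain ⟨g, e, -⟩ := hM y hy
    rw [inv_eq_of_mul_eq_one_right (show y * y = 1 from e ▸ (h.cj g).zz)]
    exact key y hy x hx ih

omit [Finite G] in
theorem normalizer_cj (X : Subgroup G) (g : G) :
    normalizer (cj X g : Set G) = cj (normalizer (X : Set G)) g :=
  Subgroup.ext fun _ => Sx.mem_normalizer_cj.trans mem_cj.symm

omit [Finite G] in
theorem isPGroup_cj {p : ℕ} {X : Subgroup G} (h : IsPGroup p X) (g : G) : IsPGroup p (cj X g) :=
  h.map _

omit [Finite G] in
theorem cj_ne_bot {X : Subgroup G} (h : X ≠ ⊥) (g : G) : cj X g ≠ ⊥ := fun e =>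
  h (by rw [← cj_inv_cj X g, e]; exact map_bot _)

/-- assembly of the list of seven 2-local subgroups -/
theorem MS.seven {Q S : Subgroup G} {z s : G} {θ : centralizer ({z} : Set G) →* Spor.Co1}
    {R : Lam → G → Prop} (h : MS Q S z s θ R) (L : List (Subgroup G)) (hL : L.length ≤ 7)
    (h2 : ∀ X ∈ L, IsPGroup 2 X ∧ X ≠ ⊥)
    (hc : ∀ H : Subgroup G, IsMaximalTwoLocal H → ∃ g, ∃ X ∈ L, H ≤ normalizer (cj X g : Set G)) :
    ∃ T : Finset (Subgroup G), T.card = 7 ∧ (∀ H ∈ T, IsTwoLocal H) ∧ ∀ H : Subgroup G,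
      IsMaximalTwoLocal H → ∃ H₀ ∈ T, ∃ g : G, H = H₀.map (MulAut.conj g).toMonoidHom := by
  classical
  have := Fintype.ofFinite G
  let f : G → Subgroup G := fun u => normalizer (zpowers u : Set G)
  let A : Finset G := (Finset.univ.filter fun u => u ∈ h.pre (spK K5 4)).erase 1
  have mA : ∀ u ∈ A, u ≠ 1 ∧ ∃ P, LX P u := fun u hu => by
    obtain ⟨u1, hu⟩ := Finset.mem_erase.1 hu
    have hu := (Finset.mem_filter.1 hu).2
    obtain ⟨m, hm, c⟩ := (Sx.co_pre h le_rfl).1 hu
    have b : Sx.bd m = false := (by decide +kernel : ∀ m < 2 ^ 4, Sx.bd m = false) m hm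
    obtain ⟨g, e⟩ := isConj_iff.1 ((qz_eq_zero.1 ((Sx.qz_co h (by omega) c).2 b)).resolve_left u1)
    exact ⟨u1, _, e ▸ h.hQ.cj g⟩
  have cA : A.card = 31 := by
    rw [Finset.card_erase_of_mem (by simp [one_mem]), ← Fintype.card_subtype, ← Nat.card_eq_fintype_card]
    exact congrArg (· - 1) h.card5
  have inj : Set.InjOn f A := fun u hu v hv e => by
    obtain ⟨-, P, p⟩ := mA u hu
    obtain ⟨v1, P', p'⟩ := mA v hv
    have key : ∀ x ∈ P, v * x = x * v := fun x hx => by
      have h1 : x ∈ f u := mem_normalizer_of_conj_mem fun y hy => p.conj_mem_of_z_mem p.Z_le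
        (mem_zpowers u) hx hy |> fun _ => by
          rcases p.mem_Z.1 hy with rfl | rfl
          · simp
          · rw [p.cen x hx, mul_inv_cancel_right]; exact hy
      rw [e] at h1
      rcases p'.mem_Z.1 (conj_mem_of_mem_normalizer h1 (mem_zpowers v)) with c | c
      · exact absurd (conj_eq_one_iff.1 c) v1
      · exact (mul_inv_eq_iff_eq_mul.1 c).symm
    have : v ∈ centralizer (P : Set G) := fun x hx => (key x hx).symm
    rw [p.centralizer_eq, p.mem_Z] at this
    exact (this.resolve_left v1).symm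
  let T0 : Finset (Subgroup G) := L.toFinset.image fun X : Subgroup G => normalizer (X : Set G)
  obtain ⟨T, t1, t2, t3⟩ := Finset.exists_subsuperset_card_eq (s := T0) (t := T0 ∪ A.image f) (n := 7)
    Finset.subset_union_left (Finset.card_image_le.trans ((List.toFinset_card_le L).trans hL))
    (le_trans (by rw [Finset.card_image_of_injOn inj, cA]; norm_num)
      (Finset.card_le_card Finset.subset_union_right))
  refine ⟨T, t3, fun H hH => ?_, fun H hH => ?_⟩
  · rcases Finset.mem_union.1 (t2 hH) with c | c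
    · obtain ⟨X, hX, rfl⟩ := Finset.mem_image.1 c
      have := h2 X (List.mem_toFinset.1 hX)
      exact ⟨X, this.1, this.2, rfl⟩
    · obtain ⟨u, hu, rfl⟩ := Finset.mem_image.1 c
      obtain ⟨u1, P, p⟩ := mA u hu
      exact ⟨zpowers u, IsPGroup.of_card (n := 1) p.card_Z, zpowers_ne_bot.2 u1, rfl⟩
  · obtain ⟨g, X, hX, l⟩ := hc H hH
    have := h2 X hX
    refine ⟨normalizer (X : Set G), t1 (Finset.mem_image.2 ⟨X, List.mem_toFinset.2 hX, rfl⟩), g, ?_⟩
    rw [← hH.2 _ ⟨cj X g, isPGroup_cj this.1 g, cj_ne_bot this.2 g, rfl⟩ l, normalizer_cj]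

/-- the five groups of the singular chapter are nontrivial 2-groups -/
theorem MS.five_two {Q S : Subgroup G} {z s : G} {θ : centralizer ({z} : Set G) →* Spor.Co1}
    {R : Lam → G → Prop} (h : MS Q S z s θ R) {E : Subgroup G} {b : G} (t : Ten Q E z b) :
    ∀ X ∈ [zpowers z, closure {z, s}, h.pre (spK K5 2), h.pre (spK K5 4), E],
      IsPGroup 2 X ∧ X ≠ ⊥ := by
  have key : ∀ X : Subgroup G, z ∈ X → X ≤ Q → IsPGroup 2 X ∧ X ≠ ⊥ := fun X a b =>
    ⟨h.hQ.isPGroup.to_le b, fun e => h.hQ.ne (mem_bot.1 (e ▸ a))⟩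
  simp only [List.mem_cons, List.not_mem_nil, or_false, forall_eq_or_imp, forall_eq]
  refine ⟨key _ (mem_zpowers z) h.hQ.Z_le, key _ (subset_closure (by simp)) ?_,
    key _ (h.z_mem_pre _) (h.pre_le _), key _ (h.z_mem_pre _) (h.pre_le _),
    IsPGroup.of_card t.card, fun e => h.hQ.ne (mem_bot.1 (e ▸ t.zE))⟩
  rw [closure_le]
  rintro _ (rfl | rfl)
  exacts [h.hQ.mem, h.p.xQ]

end Cfsg.Agent.H49
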