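import Cfsg.Agent.H6.TBDefs
import Cfsg.Agent.H90.Basic2
import Cfsg.Agent.H3.Cores

/-!
# Abelian TI subgroups normal in a maximal `2`-local subgroup: the reduction
-/

set_option autoImplicit false

namespace Cfsg.Agent.H49.TbRed

open Cfsg Subgroup Cfsg.Agent.H6.TB
open Cfsg.Agent.H83 (cj)
open scoped Cfsg.Agent.H63

universe u

/-- The homomorphism from the cyclic group of order four with a given value on the generator. -/
def z4 {H : Type*} [Group H] {x : H} (hx : x ^ 4 = 1) : Multiplicative (ZMod 4) →* H :=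
  MonoidHom.mk' (fun i => x ^ (Multiplicative.toAdd i).val) fun i j => by
    rw [toAdd_mul, ZMod.val_add, ← pow_eq_pow_mod _ hx, pow_add]

theorem z4z4 {H : Type*} [CommGroup H] [Finite H] (h16 : Nat.card H = 16)
    (h4 : Nat.card (powMonoidHom 2 : H →* H).ker = 4) (e : ∀ x : H, x ^ 4 = 1) :
    Nonempty (H ≃* Multiplicative (ZMod 4) × Multiplicative (ZMod 4)) := by
  have le : (powMonoidHom 2 : H →* H).range ≤ (powMonoidHom 2 : H →* H).ker := by
    rintro _ ⟨x, rfl⟩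
    change (x ^ 2) ^ 2 = 1
    rw [← pow_mul, e]
  have c := (powMonoidHom 2 : H →* H).ker.card_mul_index
  rw [index_ker, h16, h4] at c
  have eq := eq_of_le_of_card_ge le (by omega)
  have ex : ∀ K : Subgroup H, Nat.card K ≤ 2 → ∃ x : H, x ^ 2 ∉ K := fun K hK => by
    by_contra! k
    have := card_le_of_le (show (powMonoidHom 2 : H →* H).range ≤ K by rintro _ ⟨x, rfl⟩; exact k x)
    omega
  obtain ⟨x, hx⟩ := ex ⊥ (by simp)
  obtain ⟨y, hy⟩ := ex (zpowers (x ^ 2)) (by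
    rw [Nat.card_zpowers]
    exact Nat.le_of_dvd two_pos (orderOf_dvd_of_pow_eq_one (by rw [← pow_mul, e])))
  have par : ∀ m n : ℕ, (x ^ 2) ^ m * (y ^ 2) ^ n = 1 → 2 ∣ m ∧ 2 ∣ n := fun m n h => by
    rw [pow_eq_pow_mod m (show (x ^ 2) ^ 2 = 1 by rw [← pow_mul, e]),
      pow_eq_pow_mod n (show (y ^ 2) ^ 2 = 1 by rw [← pow_mul, e])] at h
    rcases Nat.mod_two_eq_zero_or_one n with hn | hn <;> rw [hn] at h
    · rcases Nat.mod_two_eq_zero_or_one m with hm | hm <;> rw [hm] at h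
      · omega
      · exact absurd (by simpa using h) hx
    · rw [pow_one] at h
      exact absurd (eq_inv_of_mul_eq_one_right h ▸ inv_mem (pow_mem (mem_zpowers _) _)) hy
  refine ⟨(MulEquiv.ofBijective ((z4 (e x)).coprod (z4 (e y))) ((Nat.bijective_iff_injective_and_card _).2
    ⟨(injective_iff_map_eq_one _).2 ?_, by simp [h16]⟩)).symm⟩
  rintro ⟨i, j⟩ h
  change x ^ (Multiplicative.toAdd i).val * y ^ (Multiplicative.toAdd j).val = 1 at h
  obtain ⟨⟨m, hm⟩, ⟨n, hn⟩⟩ := par (Multiplicative.toAdd i).val (Multiplicative.toAdd j).val (by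
    rw [← pow_mul, ← pow_mul, mul_comm 2, mul_comm 2, pow_mul, pow_mul, ← mul_pow, h, one_pow])
  rw [hm, hn, pow_mul, pow_mul] at h
  obtain ⟨⟨m', hm'⟩, ⟨n', hn'⟩⟩ := par m n h
  have hi := ZMod.val_lt (Multiplicative.toAdd i)
  have hj := ZMod.val_lt (Multiplicative.toAdd j)
  rw [toAdd_eq_zero.1 ((ZMod.val_eq_zero (Multiplicative.toAdd i)).1 (by omega)),
    toAdd_eq_zero.1 ((ZMod.val_eq_zero (Multiplicative.toAdd j)).1 (by omega))]
  rfl

theorem char_congr {H K : Type*} [Group H] [Group K] (e : H ≃* K) (h : IsOfCharacteristicTwo H) :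
    IsOfCharacteristicTwo K := fun g hg => by
  rw [← H3.map_pCore_equiv e] at hg ⊢
  refine ⟨e.symm g, h fun x hx => e.injective ?_, e.apply_symm_apply g⟩
  rw [map_mul, map_mul, e.apply_symm_apply]
  exact hg _ ⟨x, hx, rfl⟩

theorem two_of_char {H : Type*} [Group H] [Finite H] (h : IsOfCharacteristicTwo H) {B : Subgroup H}
    [hB : B.Normal] (c : ∀ a ∈ B, ∀ b ∈ B, a * b = b * a) : IsPGroup 2 B := by
  refine IsPGroup.of_card (Nat.eq_prime_pow_of_unique_prime_dvd Nat.card_pos.ne' fun {r} hr hd => ?_)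
  by_contra r2
  have := Fact.mk hr
  obtain ⟨b, hb⟩ := exists_prime_orderOf_dvd_card' r hd
  let R : Subgroup H :=
    { carrier := {x | x ∈ B ∧ x ^ r = 1}
      one_mem' := ⟨one_mem _, one_pow _⟩
      mul_mem' := fun {x y} hx hy => ⟨mul_mem hx.1 hy.1, by
        rw [Commute.mul_pow (c x hx.1 y hy.1), hx.2, hy.2, mul_one]⟩
      inv_mem' := fun hx => ⟨inv_mem hx.1, by rw [inv_pow, hx.2, inv_one]⟩ }
  have hR : R.Normal := ⟨fun x hx g => ⟨hB.conj_mem x hx.1 g, by rw [conj_pow, hx.2]; simp⟩⟩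
  have pR : IsPGroup r R := fun x => ⟨1, Subtype.ext (by simpa using x.2.2)⟩
  have d := IsPGroup.disjoint_of_ne r 2 r2 _ _ pR (H3.pCore_isPGroup 2 H)
  have bR : (b : H) ∈ R := ⟨b.2, by rw [← hb, ← orderOf_coe, pow_orderOf_eq_one]⟩
  have := disjoint_def.1 d bR (h fun x hx =>
    (commute_of_normal_of_disjoint _ _ hR (pCore_normal 2 H) d b x bR hx).symm)
  rw [← orderOf_coe, this, orderOf_one] at hb
  exact hr.one_lt.ne hb

theorem mem_om {G : Type u} [Group G] {B : Subgroup G} (c : ∀ a ∈ B, ∀ b ∈ B, a * b = b * a) {x : G} :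
    x ∈ om B ↔ x ∈ B ∧ x ^ 2 = 1 := by
  refine ⟨fun h => ⟨om_le B h, ?_⟩, fun h => subset_closure h⟩
  induction h using closure_induction with
  | mem x hx => exact hx.2
  | one => exact one_pow _
  | mul x y hx hy h1 h2 => rw [Commute.mul_pow (c x (om_le B hx) y (om_le B hy)), h1, h2, mul_one]
  | inv x _ h => rw [inv_pow, h, inv_one]

theorem s1779_of (hMain : MainStmt.{u}) {G : Type u} [Group G] [Finite G] (hO : Cfsg.pCore 2 G = ⊥)
    (M : Subgroup G) (hM : Cfsg.IsMaximalTwoLocal M) (hMc : Cfsg.IsOfCharacteristicTwo ↥M)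
    (B : Subgroup G) (hBM : B ≤ M) (hBn : ∀ m ∈ M, ∀ b ∈ B, m * b * m⁻¹ ∈ B) (hBa : IsMulCommutative ↥B)
    (hti : ∀ g : G, B.map (MulAut.conj g).toMonoidHom = B ∨ B.map (MulAut.conj g).toMonoidHom ⊓ B = ⊥) :
    IsCyclic ↥B ∨
      (Nonempty (↥B ≃* Multiplicative (ZMod 4) × Multiplicative (ZMod 4)) ∧
        ∃ (F : Type) (_ : Field F) (_ : Fintype F), Fintype.card F = 4 ∧
          Nonempty (↥(Cfsg.generalizedFittingSubgroup G) ≃* Matrix.ProjectiveSpecialLinearGroup (Fin 3) F)) ∨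
      Cfsg.IsElementaryAbelian 2 B := by
  refine or_iff_not_imp_left.2 fun hc => or_iff_not_imp_right.2 fun he => ?_
  have c : ∀ a ∈ B, ∀ b ∈ B, a * b = b * a := fun a ha b hb =>
    congrArg Subtype.val (hBa.1.1 ⟨a, ha⟩ ⟨b, hb⟩)
  have p2 : IsPGroup 2 B := by
    have : (B.subgroupOf M).Normal := ⟨fun x hx g => hBn g g.2 x hx⟩
    exact (two_of_char hMc (B := B.subgroupOf M) fun a ha b hb => Subtype.ext (c a ha b hb)).of_equiv
      (subgroupOfEquivOfLe hBM)
  have b0 : B ≠ ⊥ := fun h => hc (h ▸ inferInstance)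
  have hN : N[B] = M := hM.2 _ ⟨B, p2, b0, rfl⟩ fun m hm => mem_normalizer_iff.2 fun b =>
    ⟨hBn m hm b, fun h => by simpa [mul_assoc] using hBn _ (inv_mem hm) _ h⟩
  have nel : ∃ x ∈ B, x * x ≠ 1 := by
    by_contra! k
    exact he ⟨hBa, fun a ha => by rw [pow_two, k a ha]⟩
  have four : 4 ≤ Nat.card (om B) := by
    by_contra k
    obtain ⟨n, hn⟩ := IsPGroup.iff_card.1 (p2.to_le (om_le B))
    refine hc (H90.isCyclic_of_comm_of_omega hBa p2 (om B) ?_ fun x hx h => (mem_om c).2 ⟨hx, h⟩)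
    rw [hn] at k ⊢
    rcases Nat.lt_or_ge n 2 with h | h
    · interval_cases n <;> norm_num
    · exact absurd (Nat.pow_le_pow_right two_pos h) k
  have gm : GM (Set.range fun g : G => cj g B) :=
    { comm := by
        rintro _ ⟨g, rfl⟩ _ ⟨a, ha, rfl⟩ _ ⟨b, hb, rfl⟩
        rw [← map_mul, ← map_mul, c a ha b hb]
      two := by rintro _ ⟨g, rfl⟩; exact H83.isPGroup_cj p2 g
      conj := by rintro _ ⟨g, rfl⟩ h; exact ⟨h * g, H83.cj_mul h g B⟩
      trans := by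
        rintro _ ⟨g, rfl⟩ _ ⟨h, rfl⟩
        exact ⟨h * g⁻¹, by rw [H83.cj_mul, H83.cj_inv_cj]⟩
      ti := by
        rintro _ ⟨g, rfl⟩ _ ⟨h, rfl⟩ ne
        beta_reduce at ne ⊢
        have t : cj (h⁻¹ * g) B = B ∨ cj (h⁻¹ * g) B ⊓ B = ⊥ := hti (h⁻¹ * g)
        rcases t with e | e
        · exact absurd (by rw [← H83.cj_cj_inv h (cj g B), ← H83.cj_mul h⁻¹, e]) ne
        · rw [← H83.cj_cj_inv h (cj g B), ← H83.cj_mul h⁻¹, ← H83.cj_inf, e, H83.cj_bot]
      nel := by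
        rintro _ ⟨g, rfl⟩
        obtain ⟨x, hx, h⟩ := nel
        exact ⟨_, H83.conj_mem_cj hx, by simpa using h⟩
      four := by rintro _ ⟨g, rfl⟩; rwa [om_cj, H83.card_cj]
      ne := ⟨_, 1, rfl⟩
      o2 := hO
      max := by
        rintro _ ⟨g, rfl⟩ T hT T0 h
        rw [← H83.cj_normalizer, hN] at h ⊢
        rw [H83.cj_le_iff, H83.cj_normalizer] at h
        rw [← hM.2 _ ⟨_, H83.isPGroup_cj hT g⁻¹, fun e => T0 (H83.cj_eq_bot_iff.1 e), rfl⟩ h,
          H83.cj_normalizer, H83.cj_cj_inv]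
      ch := by
        rintro _ ⟨g, rfl⟩
        rw [← H83.cj_normalizer, hN]
        exact char_congr (M.equivMapOfInjective _ (MulAut.conj g).injective) hMc }
  obtain ⟨h1, h2⟩ := hMain _ gm
  obtain ⟨k1, k2, k3⟩ := h1 B ⟨1, H83.cj_one B⟩
  let _ : CommGroup B := { (inferInstance : Group B) with mul_comm := hBa.1.1 }
  have e : (powMonoidHom 2 : B →* B).ker = (om B).subgroupOf B :=
    Subgroup.ext fun x => ⟨fun h => (mem_om c).2 ⟨x.2, congrArg Subtype.val h⟩,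
      fun h => Subtype.ext ((mem_om c).1 h).2⟩
  have k4 : Nat.card ((om B).subgroupOf B) = 4 := by
    rw [Nat.card_congr (subgroupOfEquivOfLe (om_le B)).toEquiv, k1]
  refine ⟨z4z4 ?_ (e ▸ k4) fun x => Subtype.ext ?_, h2⟩
  · rw [← ((om B).subgroupOf B).card_mul_index, k4]
    change 4 * qq B = 16
    rw [k2]
  · have := ((mem_om c).1 (k3 x x.2)).2
    rwa [← pow_two, ← pow_mul] at this

end Cfsg.Agent.H49.TbRed
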